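import Cfsg.Agent.H14.PLocal.Basic

/-!
The bound on the kernel from a labelled coset graph of a subgroup of index prime to `p`.
-/

set_option autoImplicit false

universe u v

namespace Cfsg.Agent.H14.PLocal

open Cfsg.Agent.H12.CExt

/-- The numbers of the relators that are powers of the two generators, with the exponent of the
first, and the exponent bound. -/
structure Local where
  /-- index of the relator which is the power of the first generator -/
  ja : ℕ
  /-- exponent of the first generator -/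
  ma : ℕ
  /-- bound on the exponent of the kernel -/
  q : ℕ

/-- The relation of a cycle, in the presence of the two power relators. -/
def cycVec (D : Graph) (p : ℕ × ℕ) : List ℕ :=
  vadd (walk D p.1 (D.rels.getD p.2 [])).2.tail (vsmul (D.N - 1) (vunit p.2))

/-- The relation of two words with the same value. -/
def pairVec (D : Graph) (w : List ℕ × List ℕ) : List ℕ :=
  vadd (walk D 0 w.1).2.tail (vsmul (D.N - 1) (walk D 0 w.2).2.tail)

/-- All relations. -/
def allVecs (D : Graph) (L : Local) (rows : List (ℕ × ℕ)) (xs : List (List ℕ)) : List (List ℕ) :=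
  rows.map (cycVec D) ++ [vunit L.ja, vunit D.jb] ++ xs

/-- The checks on the cycles. -/
def cycsOK (D : Graph) (rows : List (ℕ × ℕ)) : Bool :=
  rows.all fun p => Nat.blt p.1 D.n && Nat.blt p.2 D.rels.length &&
    ((walk D p.1 (D.rels.getD p.2 [])).1 == p.1) &&
    ((walk D p.1 (D.rels.getD p.2 [])).2.getD 0 0 % D.nb == 0)

/-- The check on two words with the same value. -/
def pairOK (D : Graph) (w : List ℕ × List ℕ) : Bool :=
  (w.1.all fun c => Nat.blt c 2) && (w.2.all fun c => Nat.blt c 2) &&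
  ((walk D 0 w.1).1 == (walk D 0 w.2).1) &&
  ((walk D 0 w.1).2.getD 0 0 % D.nb == (walk D 0 w.2).2.getD 0 0 % D.nb)

/-- The numeric part of the bound. -/
def boundOK (D : Graph) (L : Local) (R : List (List ℕ)) (gens : List (ℕ × List ℕ × List ℕ))
    (express : List (List ℕ × List ℕ)) : Bool :=
  (gens.all fun g => Nat.blt 0 g.1 &&
    veq L.q D.rels.length (vsmul g.1 g.2.1) (lin g.2.2 R)) &&
  ((List.range D.rels.length).all fun j =>
    veq L.q D.rels.length (vunit j)
      (vadd (lin (express.getD j ([], [])).1 (gens.map fun g => g.2.1))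
        (lin (express.getD j ([], [])).2 R)))

variable {G : Type u} [Group G]

/-- The subgroup generated by two elements, seen through the graph. -/
structure Setup (D : Graph) (L : Local) (p : ℕ) (ga gb : G) : Prop where
  rel : ∀ r ∈ D.rels, ev ga gb r = 1
  graph : AllOK D
  letters : ∀ r ∈ D.rels, ∀ c ∈ r, c < 2
  pos : 0 < D.n ∧ 0 < D.nb ∧ 0 < D.N
  hja : D.rels.getD L.ja [] = List.replicate L.ma 0 ∧ L.ja < D.rels.length
  hjb : D.rels.getD D.jb [] = List.replicate D.nb 1 ∧ D.jb < D.rels.length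
  hma : ¬ p ∣ L.ma
  hnb : ¬ p ∣ D.nb
  dvd : D.nb ∣ D.N ∧ L.q ∣ D.N
  index : ¬ p ∣ (Subgroup.closure {ga, gb}).index
  sep : ∀ e < D.nb, ∀ u < D.n, gb ^ e * tval D ga gb u = 1 → e = 0 ∧ u = 0

variable {D : Graph} {L : Local} {p : ℕ} {ga gb : G}

theorem Setup.zval_one (hS : Setup D L p ga gb) (j : ℕ) : zval D ga gb j = 1 := by
  rcases lt_or_ge j D.rels.length with hj | hj
  · rw [zval, List.getD_eq_getElem _ _ hj]
    exact hS.rel _ (List.getElem_mem hj)
  · rw [zval, List.getD_eq_default _ _ hj, ev_nil]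

theorem ev_replicate_zero {Δ : Type*} [Group Δ] (a b : Δ) (k : ℕ) :
    ev a b (List.replicate k 0) = a ^ k := by
  simp [ev, letter]

theorem Setup.ga_pow (hS : Setup D L p ga gb) : ga ^ L.ma = 1 := by
  rw [← ev_replicate_zero ga gb, ← hS.hja.1]
  exact hS.zval_one L.ja

theorem Setup.gb_pow (hS : Setup D L p ga gb) : gb ^ D.nb = 1 := by
  rw [← ev_replicate_one ga gb, ← hS.hjb.1]
  exact hS.zval_one D.jb

theorem Setup.good (hS : Setup D L p ga gb) : Good D ga gb where
  central_a j := by rw [hS.zval_one]; exact Commute.one_left _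
  central_b j := by rw [hS.zval_one]; exact Commute.one_left _
  pow_b := by
    obtain ⟨k, hk⟩ := hS.dvd.1
    rw [hk, pow_mul, hS.gb_pow, one_pow]
  pow_z j := by rw [hS.zval_one, one_pow]

/-- What a pair of lifts of the generators satisfies. -/
structure Lifts (D : Graph) (L : Local) {Γ : Type v} [Group Γ] (σ : Γ →* G) (ga gb : G)
    (a b : Γ) : Prop where
  good : Good D a b
  map_a : σ a = ga
  map_b : σ b = gb
  pow_a : a ^ L.ma = 1
  pow_b : b ^ D.nb = 1
  pow_q : ∀ j, zval D a b j ^ L.q = 1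

variable {Γ : Type v} [Group Γ] {σ : Γ →* G} {a b : Γ}

theorem Lifts.psi_congr_q (hl : Lifts D L σ ga gb a b) {x y : List ℕ}
    (h : veq L.q D.rels.length x y = true) : psi D a b x = psi D a b y := by
  unfold psi
  congr 1
  refine List.map_congr_left fun j hj => ?_
  rw [List.mem_range] at hj
  rw [pow_eq_pow_mod (x.getD j 0) (hl.pow_q j), veq_getD h hj,
    ← pow_eq_pow_mod _ (hl.pow_q j)]

theorem Lifts.phi_eq (hl : Lifts D L σ ga gb a b) (x : List ℕ) :
    phi D a b x = b ^ (x.getD 0 0 % D.nb) * psi D a b x.tail := by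
  rw [phi, ← pow_eq_pow_mod _ hl.pow_b]

/-- Two words with the same value give a relation. -/
theorem Lifts.pair_psi (hS : Setup D L p ga gb) (hl : Lifts D L σ ga gb a b)
    {w : List ℕ × List ℕ} (hw : pairOK D w = true) (h : ev a b w.1 = ev a b w.2) :
    psi D a b (pairVec D w) = 1 := by
  simp only [pairOK, Bool.and_eq_true, List.all_eq_true, Nat.blt_eq, beq_iff_eq] at hw
  obtain ⟨⟨⟨h1, h2⟩, hu⟩, he⟩ := hw
  obtain ⟨-, e1⟩ := word_eq hl.good hS.graph w.1 h1 0 hS.pos.1
  obtain ⟨-, e2⟩ := word_eq hl.good hS.graph w.2 h2 0 hS.pos.1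
  rw [h, e2, hl.phi_eq, hl.phi_eq, hu, he] at e1
  have e := mul_left_cancel (mul_right_cancel e1)
  rw [pairVec, psi_add hl.good, psi_vsmul hl.good, ← e, ← pow_succ',
    Nat.sub_add_cancel hS.pos.2.2, ← psi_vsmul hl.good]
  refine List.prod_eq_one fun t ht => ?_
  obtain ⟨j, -, rfl⟩ := List.mem_map.mp ht
  rw [vsmul_getD, pow_mul, hl.good.pow_z, one_pow]

theorem Lifts.rel_psi (hS : Setup D L p ga gb) (hl : Lifts D L σ ga gb a b)
    {rows : List (ℕ × ℕ)} (hr : cycsOK D rows = true) {xs : List (List ℕ)}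
    (hx : ∀ x ∈ xs, psi D a b x = 1) : ∀ x ∈ allVecs D L rows xs, psi D a b x = 1 := by
  simp only [cycsOK, List.all_eq_true, Bool.and_eq_true, Nat.blt_eq, beq_iff_eq] at hr
  intro x hm
  simp only [allVecs, List.mem_append, List.mem_cons, List.not_mem_nil, or_false] at hm
  rcases hm with (hm | rfl | rfl) | hm
  · obtain ⟨⟨v, j⟩, hp, rfl⟩ := List.mem_map.mp hm
    obtain ⟨⟨⟨hv, hj⟩, hend⟩, hmod⟩ := hr _ hp
    simp only at hv hj hend hmod
    have hmem : D.rels.getD j [] ∈ D.rels := by
      rw [List.getD_eq_getElem _ _ hj]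
      exact List.getElem_mem hj
    obtain ⟨-, he⟩ := word_eq hl.good hS.graph _ (hS.letters _ hmem) v hv
    rw [hend, show ev a b (D.rels.getD j []) = zval D a b j from rfl,
      ← (commute_z_tval hl.good j v).eq, hl.phi_eq, hmod, pow_zero, one_mul] at he
    have he' := mul_right_cancel he
    rw [cycVec, psi_add hl.good, psi_vsmul hl.good, psi_vunit hl.good hj, ← he', ← pow_succ',
      Nat.sub_add_cancel hS.pos.2.2, hl.good.pow_z]
  · rw [psi_vunit hl.good hS.hja.2, zval, hS.hja.1, ev_replicate_zero, hl.pow_a]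
  · rw [psi_vunit hl.good hS.hjb.2, zval, hS.hjb.1, ev_replicate_one, hl.pow_b]
  · exact hx x hm

/-- The bound on a kernel of prime power order. -/
theorem card_ker_le [Finite G] [Finite Γ] [hp : Fact p.Prime] (hS : Setup D L p ga gb)
    (hσ : Cfsg.IsStemExtension σ) (hK : IsPGroup p σ.ker) (hexp : ∀ z ∈ σ.ker, z ^ L.q = 1)
    (rows : List (ℕ × ℕ)) (hr : cycsOK D rows = true) (xs : List (List ℕ))
    (hx : ∀ a b, Lifts D L σ ga gb a b → ∀ x ∈ xs, psi D a b x = 1)
    (gens : List (ℕ × List ℕ × List ℕ)) (express : List (List ℕ × List ℕ))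
    (hb : boundOK D L (allVecs D L rows xs) gens express = true) :
    Nat.card σ.ker ≤ (gens.map fun g => g.1).prod := by
  classical
  obtain ⟨a, ha, hapow⟩ := exists_lift hσ.1 hK hS.ga_pow hS.hma
  obtain ⟨b, hb1, hbpow⟩ := exists_lift hσ.1 hK hS.gb_pow hS.hnb
  have hzk : ∀ j, zval D a b j ∈ σ.ker := fun j => by
    rw [MonoidHom.mem_ker, zval, map_ev, ha, hb1]
    exact hS.zval_one j
  have hzN : ∀ j, zval D a b j ^ D.N = 1 := fun j => by
    obtain ⟨k, hk⟩ := hS.dvd.2
    rw [hk, pow_mul, hexp _ (hzk j), one_pow]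
  have hg : Good D a b :=
    ⟨fun j => (Subgroup.mem_center_iff.mp (hσ.2.1 (hzk j)) a).symm,
      fun j => (Subgroup.mem_center_iff.mp (hσ.2.1 (hzk j)) b).symm, by
      obtain ⟨k, hk⟩ := hS.dvd.1
      rw [hk, pow_mul, hbpow, one_pow], hzN⟩
  have hl : Lifts D L σ ga gb a b := ⟨hg, ha, hb1, hapow, hbpow, fun j => hexp _ (hzk j)⟩
  have hrel := hl.rel_psi hS hr (hx a b hl)
  simp only [boundOK, Bool.and_eq_true, List.all_eq_true, Nat.blt_eq, List.mem_range] at hb
  obtain ⟨hgens, hexpr⟩ := hb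
  obtain ⟨s, hs, hmem⟩ := card_le_prod hg (gens.map fun g => (g.1, g.2.1)) fun g hg' => by
    obtain ⟨g', hg1, rfl⟩ := List.mem_map.mp hg'
    obtain ⟨hpos, hveq⟩ := hgens g' hg1
    refine ⟨hpos, ?_⟩
    simp only
    rw [← psi_vsmul hg, hl.psi_congr_q hveq]
    exact psi_lin hg _ _ hrel
  have hgens' : gens.map (fun g => g.2.1) =
      (gens.map fun g => (g.1, g.2.1)).map Prod.snd := by simp [Function.comp_def]
  have hlin : ∀ (ks ls : List ℕ) (xs : List (List ℕ)),
      psi D a b (lin ks xs) * psi D a b (lin ls xs) = psi D a b (lin (vadd ks ls) xs) := by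
    intro ks ls xs
    rw [← psi_add hg]
    refine psi_congr hg fun i _ => congrArg (· % D.N) ?_
    induction xs generalizing ks ls with
    | nil => rw [vadd_getD]; cases ks <;> cases ls <;> simp [lin, vadd]
    | cons y ys ih =>
      rcases ks with _ | ⟨k', ks⟩ <;> rcases ls with _ | ⟨l', ls⟩ <;>
        simp only [vadd, lin, vadd_getD, vsmul_getD, List.getD_nil, add_zero, zero_add]
      have := ih ks ls
      rw [vadd_getD] at this
      rw [← this]; ring
  have hpsi : ∀ x, ∃ ks, psi D a b x = psi D a b (lin ks (gens.map fun g => g.2.1)) := by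
    intro x
    have hj : ∀ j < D.rels.length,
        ∃ ks, zval D a b j = psi D a b (lin ks (gens.map fun g => g.2.1)) := fun j hj' =>
      ⟨(express.getD j ([], [])).1, by
        rw [← psi_vunit hg hj', hl.psi_congr_q (hexpr j hj'), psi_add hg,
          psi_lin hg _ _ hrel, mul_one]⟩
    have hone : psi D a b (lin [] (gens.map fun g => g.2.1)) = 1 := by
      rw [lin.eq_2 _ _ (by simp)]
      exact List.prod_eq_one fun t ht => by
        obtain ⟨j, -, rfl⟩ := List.mem_map.mp ht; simp
    have hpow : ∀ (ks : List ℕ) (k : ℕ), ∃ ls, psi D a b (lin ks (gens.map fun g => g.2.1)) ^ k =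
        psi D a b (lin ls (gens.map fun g => g.2.1)) := by
      intro ks k
      induction k with
      | zero => exact ⟨[], by rw [pow_zero, hone]⟩
      | succ k ih =>
        obtain ⟨ls, hls⟩ := ih
        exact ⟨vadd ls ks, by rw [pow_succ, hls, hlin]⟩
    have : ∀ l : List ℕ, (∀ j ∈ l, j < D.rels.length) → ∃ ks,
        (l.map fun j => zval D a b j ^ x.getD j 0).prod =
          psi D a b (lin ks (gens.map fun g => g.2.1)) := by
      intro l hl'
      induction l with
      | nil => exact ⟨[], by rw [List.map_nil, List.prod_nil, hone]⟩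
      | cons j l ih =>
        obtain ⟨ks, hks⟩ := ih fun i hi => hl' i (List.mem_cons_of_mem _ hi)
        obtain ⟨k0, hk0⟩ := hj j (hl' j List.mem_cons_self)
        obtain ⟨k1, hk1⟩ := hpow k0 (x.getD j 0)
        exact ⟨vadd k1 ks, by rw [List.map_cons, List.prod_cons, hks, hk0, hk1, hlin]⟩
    exact this _ fun j hj' => List.mem_range.mp hj'
  have hker : ∀ d ∈ σ.ker, d ∈ s := by
    intro d hd
    have hdS := commutator_le_closure hσ.2.1 ha hb1 (ker_le_commutator hσ hK hS.index hd)
    obtain ⟨w, hw, rfl⟩ := exists_word hdS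
    obtain ⟨hu, he⟩ := word_eq hg hS.graph w hw 0 hS.pos.1
    obtain ⟨-, he'⟩ := word_eq hS.good hS.graph w hw 0 hS.pos.1
    rw [tval_zero, one_mul] at he he'
    have h1 : ev ga gb w = 1 := by
      rw [← ha, ← hb1, ← map_ev]; exact MonoidHom.mem_ker.mp hd
    have hone' : ∀ x, psi D ga gb x = 1 := fun x => List.prod_eq_one fun t ht => by
      obtain ⟨j, -, rfl⟩ := List.mem_map.mp ht
      rw [hS.zval_one, one_pow]
    rw [h1, phi, hone', mul_one, pow_eq_pow_mod _ hS.gb_pow] at he'
    obtain ⟨e0, u0⟩ := hS.sep _ (Nat.mod_lt _ hS.pos.2.1) _ hu he'.symm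
    rw [u0, tval_zero, mul_one, hl.phi_eq, e0, pow_zero, one_mul] at he
    obtain ⟨ks, hks⟩ := hpsi (walk D 0 w).2.tail
    rw [he, hks, hgens']
    exact hmem ks
  calc Nat.card σ.ker ≤ Nat.card (s : Set Γ) :=
        Nat.card_le_card_of_injective (fun d => ⟨d.1, hker d.1 d.2⟩)
          (fun x y h => Subtype.ext (Subtype.mk.inj h))
    _ = s.card := Nat.card_eq_finsetCard s
    _ ≤ _ := hs.trans_eq (by rw [List.map_map]; rfl)

end Cfsg.Agent.H14.PLocal
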