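import Cfsg.Agent.H12.CentralExt.Main

/-!
The order of a two-generated subgroup from a labelled coset graph and a separation check.
-/

set_option autoImplicit false

universe u

namespace Cfsg.Agent.H14.PLocal

open Cfsg.Agent.H12.CExt

variable {G : Type u} [Group G] {D : Graph} {ga gb : G}

/-- Both power relators close at every coset. -/
def powersClose (D : Graph) (ja : ℕ) : Bool :=
  (List.range D.n).all fun v =>
    ((walk D v (D.rels.getD ja [])).1 == v) && ((walk D v (D.rels.getD D.jb [])).1 == v)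

theorem walk_fst_cons (D : Graph) (v c : ℕ) (w : List ℕ) :
    (walk D v (c :: w)).1 = (walk D (D.next v c) w).1 := rfl

theorem walk_fst_replicate (D : Graph) (c : ℕ) : ∀ (k v : ℕ),
    (walk D v (List.replicate k c)).1 = (fun u => D.next u c)^[k] v
  | 0, _ => rfl
  | k + 1, v => by
    rw [List.replicate_succ, walk_fst_cons, walk_fst_replicate D c k, Function.iterate_succ_apply]

/-- The order of the subgroup. -/
theorem card_closure [Finite G] (hrel : ∀ r ∈ D.rels, ev ga gb r = 1) (hok : AllOK D)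
    (hpos : 0 < D.n ∧ 0 < D.nb) {ja ma : ℕ} (hma : 0 < ma)
    (hja : D.rels.getD ja [] = List.replicate ma 0)
    (hjb : D.rels.getD D.jb [] = List.replicate D.nb 1)
    (hsep : ∀ e < D.nb, ∀ u < D.n, gb ^ e * tval D ga gb u = 1 → e = 0 ∧ u = 0)
    (hN : gb ^ D.N = 1) (hclose : powersClose D ja = true) :
    Nat.card (Subgroup.closure {ga, gb}) = D.nb * D.n := by
  have hz : ∀ j, zval D ga gb j = 1 := fun j => by
    rcases lt_or_ge j D.rels.length with hj | hj
    · rw [zval, List.getD_eq_getElem _ _ hj]; exact hrel _ (List.getElem_mem hj)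
    · rw [zval, List.getD_eq_default _ _ hj, ev_nil]
  have hg : Good D ga gb :=
    ⟨fun j => by rw [hz]; exact Commute.one_left _, fun j => by rw [hz]; exact Commute.one_left _,
      hN, fun j => by rw [hz, one_pow]⟩
  have hgb : gb ^ D.nb = 1 := by rw [← ev_replicate_one ga gb, ← hjb]; exact hz D.jb
  have hphi : ∀ x, phi D ga gb x = gb ^ (x.getD 0 0 % D.nb) := fun x => by
    rw [phi, pow_eq_pow_mod _ hgb, psi, List.prod_eq_one fun t ht => ?_, mul_one]
    obtain ⟨j, -, rfl⟩ := List.mem_map.mp ht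
    rw [hz, one_pow]
  -- each letter permutes the cosets
  have hnext : ∀ c < 2, ∀ v < D.n, D.next v c < D.n := fun c hc v hv => by
    have h := hok v hv c hc
    simp only [edgeOK, Bool.and_eq_true, Nat.blt_eq] at h
    exact h.1
  have hper : ∀ c < 2, ∃ k, ∀ v < D.n, (fun u => D.next u c)^[k + 1] v = v := by
    intro c hc
    simp only [powersClose, List.all_eq_true, List.mem_range, Bool.and_eq_true, beq_iff_eq,
      hja, hjb, walk_fst_replicate] at hclose
    obtain rfl | rfl : c = 0 ∨ c = 1 := by omega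
    · exact ⟨ma - 1, fun v hv => by rw [Nat.sub_add_cancel hma]; exact (hclose v hv).1⟩
    · exact ⟨D.nb - 1, fun v hv => by
        rw [Nat.sub_add_cancel hpos.2]; exact (hclose v hv).2⟩
  have hinj : ∀ (w : List ℕ), (∀ c ∈ w, c < 2) → ∀ u < D.n, ∀ v < D.n,
      (walk D u w).1 = (walk D v w).1 → u = v := by
    intro w
    induction w with
    | nil => intro _ u _ v _ h; exact h
    | cons c w ih =>
      intro hw u hu v hv h
      have hc := hw c List.mem_cons_self
      have h' := ih (fun d hd => hw d (List.mem_cons_of_mem _ hd)) _ (hnext c hc u hu) _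
        (hnext c hc v hv) h
      obtain ⟨k, hk⟩ := hper c hc
      rw [← hk u hu, ← hk v hv, Function.iterate_succ_apply, Function.iterate_succ_apply]
      exact congrArg _ h'
  set S := Subgroup.closure ({ga, gb} : Set G)
  have hA : ga ∈ S := Subgroup.subset_closure (Or.inl rfl)
  have hB : gb ∈ S := Subgroup.subset_closure (Or.inr rfl)
  have htS : ∀ v, tval D ga gb v ∈ S := by
    intro v
    induction v using Nat.strong_induction_on with
    | _ v ih =>
      rw [tval]
      split_ifs with h
      · refine S.mul_mem (ih _ h.2) ?_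
        rw [letter]
        split_ifs
        exacts [hA, hB]
      · exact S.one_mem
  let f : Fin D.nb × Fin D.n → S := fun q =>
    ⟨gb ^ (q.1 : ℕ) * tval D ga gb q.2, S.mul_mem (S.pow_mem hB _) (htS _)⟩
  have hsurj : Function.Surjective f := by
    rintro ⟨g, hgS⟩
    obtain ⟨w, hw, rfl⟩ := exists_word hgS
    obtain ⟨hu, he⟩ := word_eq hg hok w hw 0 hpos.1
    rw [tval_zero, one_mul, hphi] at he
    exact ⟨(⟨_, Nat.mod_lt _ hpos.2⟩, ⟨_, hu⟩), Subtype.ext he.symm⟩
  have hinjf : Function.Injective f := by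
    rintro ⟨e, u⟩ ⟨e', v⟩ h
    have h' : gb ^ (e : ℕ) * tval D ga gb u = gb ^ (e' : ℕ) * tval D ga gb v :=
      congrArg Subtype.val h
    obtain ⟨w, hw, hwe⟩ := exists_word (S.inv_mem (htS v))
    obtain ⟨hv2, ev2⟩ := word_eq hg hok w hw v v.2
    rw [hwe, mul_inv_cancel, hphi] at ev2
    obtain ⟨-, z2⟩ := hsep _ (Nat.mod_lt _ hpos.2) _ hv2 ev2.symm
    obtain ⟨hu2, eu2⟩ := word_eq hg hok w hw u u.2
    rw [hwe, hphi] at eu2
    have key : tval D ga gb u * (tval D ga gb v)⁻¹ = gb ^ ((D.nb - (e : ℕ) + e') % D.nb) := by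
      have he : gb ^ (D.nb - (e : ℕ)) * gb ^ (e : ℕ) = 1 := by
        rw [← pow_add, Nat.sub_add_cancel e.2.le, hgb]
      rw [← pow_eq_pow_mod _ hgb, pow_add, eq_inv_of_mul_eq_one_left he, mul_inv_eq_iff_eq_mul,
        mul_assoc, eq_inv_mul_iff_mul_eq]
      exact h'
    rw [key] at eu2
    have z1 : (walk D u w).1 = 0 := by
      set k := (D.nb - (e : ℕ) + e') % D.nb
      set m := (walk D u w).2.getD 0 0 % D.nb
      have hk : k < D.nb := Nat.mod_lt _ hpos.2
      refine (hsep ((D.nb - k + m) % D.nb) (Nat.mod_lt _ hpos.2) _ hu2 ?_).2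
      rw [← pow_eq_pow_mod _ hgb, pow_add, mul_assoc, ← eu2, ← pow_add,
        Nat.sub_add_cancel hk.le, hgb]
    have huv : u = v := Fin.ext (hinj w hw u u.2 v v.2 (z1.trans z2.symm))
    subst huv
    have he := mul_right_cancel h'
    have hee : (e : ℕ) = e' := by
      by_contra hne
      have aux : ∀ x y : Fin D.nb, (x : ℕ) < y → gb ^ (x : ℕ) = gb ^ (y : ℕ) → False := by
        intro x y hlt hxy
        have := hsep ((y : ℕ) - x) (by omega) 0 hpos.1 (by
          rw [tval_zero, mul_one]
          refine mul_right_cancel (b := gb ^ (x : ℕ)) ?_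
          rw [one_mul, ← pow_add, Nat.sub_add_cancel hlt.le, hxy])
        omega
      rcases Nat.lt_or_gt_of_ne hne with hlt | hlt
      exacts [aux e e' hlt he, aux e' e hlt he.symm]
    exact Prod.ext (Fin.ext hee) rfl
  rw [← Nat.card_eq_of_bijective f ⟨hinjf, hsurj⟩, Nat.card_prod, Nat.card_fin, Nat.card_fin]

end Cfsg.Agent.H14.PLocal
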