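import Cfsg.Agent.H12.CentralExt.Cover
import Cfsg.Agent.H16.CertArr

/-!
A faster check of the reduced labels of a coset graph, on natural numbers.
-/

set_option autoImplicit false

namespace Cfsg.Agent.H14.PLocal

open Cfsg.Agent.H16 Cfsg.Agent.H12.CExt

variable (D : Graph) (m : ℕ) (le ls : ℕ → ℕ → ℕ)

/-- Reduced labels given by numbers. -/
def natLab (v c : ℕ) : ZMod D.nb × ZMod m := ((le v c : ZMod D.nb), (ls v c : ZMod m))

/-- Walk with the numerical labels, continued with the sums. -/
noncomputable def cycleOK (target : ℕ) (je : ℕ) (w : List ℕ) : ℕ → ℕ → ℕ → Bool :=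
  List.rec (motive := fun _ => ℕ → ℕ → ℕ → Bool)
    (fun u e s => Nat.beq u target && Nat.beq (e % D.nb) 0 && Nat.beq (s % m) (je % m))
    (fun c _ ih u e s => forceNat (D.next u c) fun u' => forceNat (e + le u c) fun e' =>
      forceNat (s + ls u c) fun s' => ih u' e' s') w

/-- The check at a chunk of cosets. -/
noncomputable def coverFast (chi : ℕ → ℕ) (lo len : ℕ) : Bool :=
  allFrom (fun v =>
    allFrom (fun c => Nat.beq (le v c % D.nb) ((D.lab v c).getD 0 0 % D.nb)) 2 0 &&
    allFrom (fun j => cycleOK D m le ls v (chi j) (D.rels.getD j []) v 0 0) D.rels.length 0) len lo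

theorem cycleOK_spec {target je : ℕ} : ∀ {w : List ℕ} {u e s : ℕ},
    cycleOK D m le ls target je w u e s = true →
      (walkA D (natLab D m le ls) u w).1 = target ∧
        ((e : ZMod D.nb), (s : ZMod m)) + (walkA D (natLab D m le ls) u w).2 = (0, (je : ZMod m))
  | [], u, e, s, h => by
    have h' : (Nat.beq u target && Nat.beq (e % D.nb) 0 && Nat.beq (s % m) (je % m)) = true := h
    simp only [Bool.and_eq_true] at h'
    refine ⟨Nat.eq_of_beq_eq_true h'.1.1, ?_⟩
    simp only [walkA, add_zero]
    refine Prod.ext ?_ ?_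
    · show (e : ZMod D.nb) = 0
      rw [← ZMod.natCast_mod, Nat.eq_of_beq_eq_true h'.1.2, Nat.cast_zero]
    · show (s : ZMod m) = je
      rw [← ZMod.natCast_mod s, Nat.eq_of_beq_eq_true h'.2, ZMod.natCast_mod]
  | c :: w, u, e, s, h => by
    have h' : (forceNat (D.next u c) fun u' => forceNat (e + le u c) fun e' =>
      forceNat (s + ls u c) fun s' => cycleOK D m le ls target je w u' e' s') = true := h
    rw [forceNat_eq, forceNat_eq, forceNat_eq] at h'
    obtain ⟨h1, h2⟩ := cycleOK_spec h'
    refine ⟨h1, ?_⟩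
    rw [← h2]
    simp only [walkA, natLab, Nat.cast_add, ← add_assoc, Prod.mk_add_mk]

/-- The reduced labels from the checks. -/
theorem coverOK_of_fast (chi : ℕ → ℕ) (h : ∀ v < D.n, coverFast D m le ls chi v 1 = true)
    (hok : AllOK D)
    (hlast : (List.range 2).all (fun c => (List.range D.rels.length).any fun j =>
      (D.rels.getD j []).getLast? == some c) = true) :
    CoverOK D (natLab D m le ls) (fun j => (chi j : ZMod m)) := by
  have hh : ∀ v < D.n, (∀ c < 2, le v c % D.nb = (D.lab v c).getD 0 0 % D.nb) ∧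
      ∀ j < D.rels.length, cycleOK D m le ls v (chi j) (D.rels.getD j []) v 0 0 = true := by
    intro v hv
    have := allFrom_spec (h v hv) v le_rfl (by omega)
    simp only [Bool.and_eq_true] at this
    exact ⟨fun c hc => Nat.eq_of_beq_eq_true (allFrom_spec this.1 c (Nat.zero_le _) (by omega)),
      fun j hj => allFrom_spec this.2 j (Nat.zero_le _) (by omega)⟩
  refine ⟨fun v hv c hc => ?_, fun v hv j hj => ?_, fun v hv c hc => ?_, fun c hc => ?_⟩
  · show ((le v c : ℕ) : ZMod D.nb) = _
    rw [← ZMod.natCast_mod, (hh v hv).1 c hc, ZMod.natCast_mod]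
  · obtain ⟨h1, h2⟩ := cycleOK_spec D m le ls ((hh v hv).2 j hj)
    simp only [Nat.cast_zero] at h2
    exact Prod.ext h1 ((zero_add _).symm.trans h2)
  · have := hok v hv c hc
    simp only [edgeOK, Bool.and_eq_true, Nat.blt_eq] at this
    exact this.1
  · obtain ⟨j, hj, h'⟩ := List.any_eq_true.mp (List.all_eq_true.mp hlast c (List.mem_range.mpr hc))
    rw [beq_iff_eq] at h'
    exact ⟨j, List.mem_range.mp hj, List.getLast?_eq_some_iff.mp h'⟩

end Cfsg.Agent.H14.PLocal
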