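import Cfsg.Agent.H14.PLocal.OrbitProd
import Cfsg.Prelude.Def_KGroupFacts

/-!
A central extension of a subgroup transferred to the whole group, and its commutator on a commuting
pair of elements of order three: only the cosets fixed by both contribute.
-/

set_option autoImplicit false

namespace Cfsg.Agent.H14.PLocal.Transfer

open scoped commutatorElement IsMulCommutative

variable {G K : Type} [Group G] [Group K] (π : K →* G)

/-- The cosets of the subgroup. -/
abbrev Cos : Type := G ⧸ π.range

/-- The group of values. -/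
abbrev Val : Type := ↥(π.ker.subgroupOf (Subgroup.center K))

open Classical in
/-- A section, the identity going to the identity. -/
noncomputable def sec (g : G) : K :=
  if h : g ≠ 1 ∧ g ∈ π.range then h.2.choose else 1

theorem sec_one : sec π (1 : G) = 1 := by
  simp [sec]

theorem map_sec {g : G} (hg : g ∈ π.range) : π (sec π g) = g := by
  unfold sec
  split_ifs with h
  · exact h.2.choose_spec
  · have : g = 1 := by by_contra h1; exact h ⟨h1, hg⟩
    rw [this, map_one]

/-- The discrepancy of the representatives. -/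
noncomputable def hh (g : G) (v : Cos π) : G := (g • v).out⁻¹ * (g * v.out)

theorem hh_mem (g : G) (v : Cos π) : hh π g v ∈ π.range := by
  have h1 : ((g • v).out : Cos π) = g • v := QuotientGroup.out_eq' _
  have h2 : ((g * v.out : G) : Cos π) = g • v := by
    conv_rhs => rw [← QuotientGroup.out_eq' v]
    rfl
  exact QuotientGroup.eq.mp (h1.trans h2.symm)

theorem hh_mul (g g' : G) (v : Cos π) :
    hh π (g * g') v = hh π g (g' • v) * hh π g' v := by
  rw [hh, hh, hh, smul_smul]
  group

/-- Its lift. -/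
noncomputable def Phi (g : G) (v : Cos π) : K := sec π (hh π g v)

theorem map_Phi (g : G) (v : Cos π) : π (Phi π g v) = hh π g v := map_sec π (hh_mem π g v)

theorem Phi_one (v : Cos π) : Phi π 1 v = 1 := by
  rw [Phi, hh, one_smul, one_mul, inv_mul_cancel, sec_one]

/-- The local cocycle. -/
noncomputable def dRaw (g g' : G) (v : Cos π) : K :=
  Phi π g (g' • v) * Phi π g' v * (Phi π (g * g') v)⁻¹

theorem dRaw_mem (g g' : G) (v : Cos π) : dRaw π g g' v ∈ π.ker := by
  rw [MonoidHom.mem_ker, dRaw, map_mul, map_mul, map_inv, map_Phi, map_Phi, map_Phi, hh_mul,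
    mul_inv_cancel]

variable {π} (hc : π.ker ≤ Subgroup.center K)

include hc in
theorem comm_ker {z : K} (hz : z ∈ π.ker) (k : K) : k * z = z * k :=
  Subgroup.mem_center_iff.mp (hc hz) k

/-- A value from an element of the kernel. -/
def val (z : K) (hz : z ∈ π.ker) : Val π := ⟨⟨z, hc hz⟩, hz⟩

theorem val_ext {a b : Val π} (h : ((a : Subgroup.center K) : K) = b) : a = b :=
  Subtype.ext (Subtype.ext h)

/-- The local cocycle, as a value. -/
noncomputable def dd (g g' : G) (v : Cos π) : Val π := val hc (dRaw π g g' v) (dRaw_mem π g g' v)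

theorem dd_assoc (g g' g'' : G) (v : Cos π) :
    dd hc g g' (g'' • v) * dd hc (g * g') g'' v = dd hc g' g'' v * dd hc g (g' * g'') v := by
  apply val_ext
  show dRaw π g g' (g'' • v) * dRaw π (g * g') g'' v = dRaw π g' g'' v * dRaw π g (g' * g'') v
  have e : ∀ a b w, dRaw π a b w * Phi π (a * b) w = Phi π a (b • w) * Phi π b w := fun a b w => by
    rw [dRaw, inv_mul_cancel_right]
  refine mul_right_cancel (b := Phi π (g * g' * g'') v) ?_
  calc dRaw π g g' (g'' • v) * dRaw π (g * g') g'' v * Phi π (g * g' * g'') v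
      = dRaw π g g' (g'' • v) * Phi π (g * g') (g'' • v) * Phi π g'' v := by
        rw [mul_assoc, e, ← mul_assoc]
    _ = Phi π g ((g' * g'') • v) * (Phi π g' (g'' • v) * Phi π g'' v) := by
        rw [e, smul_smul, mul_assoc]
    _ = Phi π g ((g' * g'') • v) * dRaw π g' g'' v * Phi π (g' * g'') v := by
        rw [← e g' g'' v, ← mul_assoc]
    _ = dRaw π g' g'' v * dRaw π g (g' * g'') v * Phi π (g * g' * g'') v := by
        rw [comm_ker hc (dRaw_mem π g' g'' v), mul_assoc, ← e g (g' * g'') v, ← mul_assoc,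
          mul_assoc g]

theorem dd_one_left (g : G) (v : Cos π) : dd hc 1 g v = 1 := by
  apply val_ext
  show dRaw π 1 g v = 1
  rw [dRaw, Phi_one, one_mul, one_mul, mul_inv_cancel]

theorem dd_one_right (g : G) (v : Cos π) : dd hc g 1 v = 1 := by
  apply val_ext
  show dRaw π g 1 v = 1
  rw [dRaw, Phi_one, mul_one, one_smul, mul_one, mul_inv_cancel]

variable [Fintype (Cos π)]

/-- The transferred cocycle. -/
noncomputable def cc (g g' : G) : Val π := ∏ v : Cos π, dd hc g g' v

theorem cc_assoc (g g' g'' : G) :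
    cc hc g g' * cc hc (g * g') g'' = cc hc g' g'' * cc hc g (g' * g'') := by
  unfold cc
  rw [← Equiv.prod_comp (MulAction.toPerm g'' : Equiv.Perm (Cos π)) fun v => dd hc g g' v,
    ← Finset.prod_mul_distrib, ← Finset.prod_mul_distrib]
  exact Finset.prod_congr rfl fun v _ => dd_assoc hc g g' g'' v

theorem cc_one_left (g : G) : cc hc 1 g = 1 :=
  Finset.prod_eq_one fun v _ => dd_one_left hc g v

theorem cc_one_right (g : G) : cc hc g 1 = 1 :=
  Finset.prod_eq_one fun v _ => dd_one_right hc g v

/-- The transferred extension. -/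
structure Ext (π : K →* G) (hc : π.ker ≤ Subgroup.center K) where
  /-- the image -/
  g : G
  /-- the central part -/
  a : Val π

omit [Fintype (Cos π)] in
theorem Ext.ext' {p q : Ext π hc} (h1 : p.g = q.g) (h2 : p.a = q.a) : p = q := by
  cases p; cases q; simp_all

/-- The extension is a pair. -/
def Ext.equiv : Ext π hc ≃ G × Val π where
  toFun p := (p.g, p.a)
  invFun p := ⟨p.1, p.2⟩
  left_inv _ := rfl
  right_inv _ := rfl

noncomputable instance Ext.instGroup : Group (Ext π hc) where
  mul p q := ⟨p.g * q.g, p.a * q.a * cc hc p.g q.g⟩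
  one := ⟨1, 1⟩
  inv p := ⟨p.g⁻¹, (p.a * cc hc p.g⁻¹ p.g)⁻¹⟩
  mul_assoc p q r := by
    refine Ext.ext' hc (mul_assoc _ _ _) ?_
    show p.a * q.a * cc hc p.g q.g * r.a * cc hc (p.g * q.g) r.g =
      p.a * (q.a * r.a * cc hc q.g r.g) * cc hc p.g (q.g * r.g)
    calc p.a * q.a * cc hc p.g q.g * r.a * cc hc (p.g * q.g) r.g
        = p.a * q.a * r.a * (cc hc p.g q.g * cc hc (p.g * q.g) r.g) := by
          simp only [mul_assoc, mul_comm, mul_left_comm]
      _ = p.a * q.a * r.a * (cc hc q.g r.g * cc hc p.g (q.g * r.g)) := by rw [cc_assoc]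
      _ = _ := by simp only [mul_assoc]
  one_mul p := by
    refine Ext.ext' hc (one_mul _) ?_
    show 1 * p.a * cc hc 1 p.g = p.a
    rw [cc_one_left, one_mul, mul_one]
  mul_one p := by
    refine Ext.ext' hc (mul_one _) ?_
    show p.a * 1 * cc hc p.g 1 = p.a
    rw [cc_one_right, mul_one, mul_one]
  inv_mul_cancel p := by
    refine Ext.ext' hc (inv_mul_cancel _) ?_
    show (p.a * cc hc p.g⁻¹ p.g)⁻¹ * p.a * cc hc p.g⁻¹ p.g = 1
    rw [mul_assoc, inv_mul_cancel]

/-- The projection. -/
noncomputable def proj : Ext π hc →* G := MonoidHom.mk' Ext.g fun _ _ => rfl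

/-- The contribution of a coset to a commutator. -/
noncomputable def ee (x y : G) (v : Cos π) : Val π := dd hc x y v / dd hc y x v

omit [Fintype (Cos π)] in
theorem ee_swap (x y : G) (v : Cos π) : ee hc y x v = (ee hc x y v)⁻¹ := (inv_div _ _).symm

omit [Fintype (Cos π)] in
theorem ee_spec {x y : G} (hxy : x * y = y * x) (v : Cos π) :
    Phi π x (y • v) * Phi π y v =
      ((ee hc x y v : Subgroup.center K) : K) * (Phi π y (x • v) * Phi π x v) := by
  show _ = dRaw π x y v / dRaw π y x v * _
  rw [dRaw, dRaw, hxy, div_eq_mul_inv]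
  group

/-- The product of three lifts along a cycle. -/
noncomputable def loopRaw (y : G) (u : Cos π) : K :=
  Phi π y (y • y • u) * Phi π y (y • u) * Phi π y u

omit [Fintype (Cos π)] in
theorem loop_mem {y : G} (hy : y ^ 3 = 1) (u : Cos π) : loopRaw y u ∈ π.ker := by
  rw [MonoidHom.mem_ker, loopRaw, map_mul, map_mul, map_Phi, map_Phi, map_Phi]
  have h : y * y * y = 1 := by rw [← hy, pow_succ, pow_two]
  rw [← hh_mul π y y (y • u), ← hh_mul π (y * y) y u, h, hh, one_smul, one_mul, inv_mul_cancel]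

/-- Cycles of an element moving all points of an invariant set contribute nothing. -/
theorem prod_moved {x y : G} (hxy : x * y = y * x) (hy : y ^ 3 = 1) (S : Finset (Cos π))
    (hSy : ∀ u, y • u ∈ S ↔ u ∈ S) (hSx : ∀ u, x • u ∈ S ↔ u ∈ S) (hne : ∀ u ∈ S, y • u ≠ u) :
    ∏ u ∈ S, ee hc x y u = 1 := by
  have hcm : ∀ u : Cos π, y • x • u = x • y • u := fun u => by rw [smul_smul, smul_smul, hxy]
  have h3 : ∀ u : Cos π, y • y • y • u = u := fun u => by
    rw [smul_smul, smul_smul, show y * y * y = y ^ 3 by rw [pow_succ, pow_two], hy, one_smul]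
  refine prod_eq_one_of_cycles (MulAction.toPerm y) (MulAction.toPerm x) h3 hcm S hSy hSx hne
    (ee hc x y) (fun u => val hc (loopRaw y u) (loop_mem hy u)) (fun u => ?_) fun u => ?_
  · apply val_ext
    show loopRaw y (y • u) = loopRaw y u
    have h := comm_ker hc (loop_mem hy u) (Phi π y u)
    rw [loopRaw, h3]
    refine mul_right_cancel (b := Phi π y u) ?_
    rw [← h, loopRaw]
    simp only [mul_assoc]
  · rw [eq_div_iff_mul_eq']
    apply val_ext
    show ((ee hc x y u : Subgroup.center K) : K) * (ee hc x y (y • u) : Subgroup.center K) *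
      (ee hc x y (y • y • u) : Subgroup.center K) * loopRaw y (x • u) = loopRaw y u
    have e0 := ee_spec hc hxy u
    have e1 := ee_spec hc hxy (y • u)
    have e2 := ee_spec hc hxy (y • y • u)
    rw [h3] at e2
    set z0 := ((ee hc x y u : Subgroup.center K) : K)
    set z1 := ((ee hc x y (y • u) : Subgroup.center K) : K)
    set z2 := ((ee hc x y (y • y • u) : Subgroup.center K) : K)
    have c0 : ∀ k, k * z0 = z0 * k := Subgroup.mem_center_iff.mp (ee hc x y u).1.2
    have c1 : ∀ k, k * z1 = z1 * k := Subgroup.mem_center_iff.mp (ee hc x y (y • u)).1.2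
    have key : Phi π x u * loopRaw y u =
        z2 * (z1 * (z0 * (loopRaw y (x • u) * Phi π x u))) := by
      calc Phi π x u * loopRaw y u
          = Phi π x u * Phi π y (y • y • u) * Phi π y (y • u) * Phi π y u := by
            rw [loopRaw]; simp only [mul_assoc]
        _ = z2 * Phi π y (x • y • y • u) * (Phi π x (y • y • u) * Phi π y (y • u)) * Phi π y u := by
            rw [e2]; simp only [mul_assoc]
        _ = z2 * z1 * Phi π y (x • y • y • u) * Phi π y (x • y • u) *
              (Phi π x (y • u) * Phi π y u) := by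
            rw [e1]
            simp only [mul_assoc]
            rw [← mul_assoc (Phi π y (x • y • y • u)) z1, c1]
            simp only [mul_assoc]
        _ = z2 * (z1 * (z0 * (loopRaw y (x • u) * Phi π x u))) := by
            rw [e0, loopRaw, hcm u, hcm (y • u)]
            simp only [mul_assoc]
            rw [← mul_assoc (Phi π y (x • y • u)) z0, c0]
            simp only [mul_assoc]
            rw [← mul_assoc (Phi π y (x • y • y • u)) z0, c0]
            simp only [mul_assoc]
    rw [comm_ker hc (loop_mem hy u) (Phi π x u)] at key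
    have c2 : ∀ k, k * z2 = z2 * k :=
      Subgroup.mem_center_iff.mp (ee hc x y (y • y • u)).1.2
    refine mul_right_cancel (b := Phi π x u) ?_
    rw [key, c2 (z0 * z1), ← c0 z1]
    simp only [mul_assoc]

open Classical in
/-- The commutator of two commuting elements of order three in the transferred extension. -/
theorem commutator_eq {x y : G} (hxy : x * y = y * x) (hx : x ^ 3 = 1) (hy : y ^ 3 = 1) :
    ⁅(⟨x, 1⟩ : Ext π hc), (⟨y, 1⟩ : Ext π hc)⁆ =
      ⟨1, ∏ v ∈ Finset.univ.filter (fun v : Cos π => x • v = v ∧ y • v = v), ee hc x y v⟩ := by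
  classical
  have hmoved := prod_moved hc hxy hy (Finset.univ.filter fun v : Cos π => y • v ≠ v)
    (fun u => by simp) (fun u => by
      simp only [Finset.mem_filter, Finset.mem_univ, true_and]
      rw [smul_smul, ← hxy, ← smul_smul, not_iff_not]
      exact ⟨fun h => MulAction.injective x h, fun h => by rw [h]⟩)
    (fun u hu => (Finset.mem_filter.mp hu).2)
  have hmoved' := prod_moved hc hxy.symm hx
    (Finset.univ.filter fun v : Cos π => y • v = v ∧ x • v ≠ v)
    (fun u => by
      simp only [Finset.mem_filter, Finset.mem_univ, true_and]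
      rw [smul_smul, ← hxy, ← smul_smul]
      exact ⟨fun h => ⟨MulAction.injective x h.1, fun e => h.2 (by rw [e, e])⟩,
        fun h => ⟨by rw [h.1], fun e => h.2 (MulAction.injective x e)⟩⟩)
    (fun u => by
      simp only [Finset.mem_filter, Finset.mem_univ, true_and]
      exact ⟨fun h => ⟨MulAction.injective y h.1, fun e => h.2 (by
        rw [smul_smul, hxy, ← smul_smul, e])⟩,
        fun h => by rw [h.1]; exact h⟩)
    (fun u hu => (Finset.mem_filter.mp hu).2.2)
  simp only [ee_swap hc x y, Finset.prod_inv_distrib, inv_eq_one] at hmoved'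
  have hall : (∏ v : Cos π, ee hc x y v) =
      ∏ v ∈ Finset.univ.filter (fun v : Cos π => x • v = v ∧ y • v = v), ee hc x y v := by
    rw [← Finset.prod_filter_mul_prod_filter_not Finset.univ (fun v : Cos π => y • v = v),
      hmoved, mul_one,
      ← Finset.prod_filter_mul_prod_filter_not (Finset.univ.filter fun v : Cos π => y • v = v)
        (fun v : Cos π => x • v = v), Finset.filter_filter, Finset.filter_filter, hmoved', mul_one]
    refine Finset.prod_congr (Finset.filter_congr fun v _ => and_comm) fun _ _ => rfl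
  rw [← hall]
  unfold ee
  rw [Finset.prod_div_distrib]
  rw [commutatorElement_def, mul_inv_eq_iff_eq_mul, mul_inv_eq_iff_eq_mul]
  refine Ext.ext' hc (show x * y = 1 * y * x by rw [one_mul, hxy]) ?_
  show 1 * 1 * cc hc x y =
    (cc hc x y / cc hc y x * 1 * cc hc 1 y) * 1 * cc hc (1 * y) x
  rw [cc_one_left, one_mul]
  simp

omit [Fintype (Cos π)] in
theorem ee_fixed {x y : G} (hxy : x * y = y * x) {v : Cos π} (hx : x • v = v) (hy : y • v = v)
    {t : G} (ht : (t : Cos π) = v) {X Y : K} (hX : π X = t⁻¹ * x * t) (hY : π Y = t⁻¹ * y * t) :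
    ((ee hc x y v : Subgroup.center K) : K) = ⁅X, Y⁆ := by
  have e := ee_spec hc hxy v
  rw [hx, hy] at e
  have e' : ((ee hc x y v : Subgroup.center K) : K) = ⁅Phi π x v, Phi π y v⁆ := by
    rw [commutatorElement_def, eq_mul_inv_iff_mul_eq, eq_mul_inv_iff_mul_eq, mul_assoc]
    exact e.symm
  obtain ⟨k, hk⟩ : t⁻¹ * v.out ∈ π.range :=
    QuotientGroup.eq.mp (ht.trans (QuotientGroup.out_eq' v).symm)
  have hP : ∀ {g : G} {Z : K}, g • v = v → π Z = t⁻¹ * g * t →
      ∃ z ∈ π.ker, Phi π g v = k⁻¹ * Z * k * z := by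
    intro g Z hg hZ
    refine ⟨(k⁻¹ * Z * k)⁻¹ * Phi π g v, ?_, (mul_inv_cancel_left _ _).symm⟩
    rw [MonoidHom.mem_ker]
    simp only [map_mul, map_inv, map_Phi, hh, hg, hk, hZ]
    group
  obtain ⟨z, hz, eX⟩ := hP hx hX
  obtain ⟨w, hw, eY⟩ := hP hy hY
  have hker : ⁅X, Y⁆ ∈ π.ker := by
    rw [MonoidHom.mem_ker, map_commutatorElement, hX, hY, commutatorElement_eq_one_iff_mul_comm]
    calc t⁻¹ * x * t * (t⁻¹ * y * t) = t⁻¹ * (x * y) * t := by group
      _ = t⁻¹ * (y * x) * t := by rw [hxy]
      _ = _ := by group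
  have cz := comm_ker hc hz
  have cw := comm_ker hc hw
  rw [e', eX, eY, commutatorElement_def]
  calc k⁻¹ * X * k * z * (k⁻¹ * Y * k * w) * (k⁻¹ * X * k * z)⁻¹ * (k⁻¹ * Y * k * w)⁻¹
      = k⁻¹ * X * k * (z * (k⁻¹ * Y * k * w) * z⁻¹) * (k⁻¹ * X * k)⁻¹ * w⁻¹ *
          (k⁻¹ * Y * k)⁻¹ := by group
    _ = k⁻¹ * X * k * (k⁻¹ * Y * k) * (w * (k⁻¹ * X * k)⁻¹ * w⁻¹) * (k⁻¹ * Y * k)⁻¹ := by
        rw [← cz]; group
    _ = k⁻¹ * (⁅X, Y⁆ * k) := by
        rw [← cw, commutatorElement_def]; group
    _ = ⁅X, Y⁆ := by rw [← comm_ker hc hker k, inv_mul_cancel_left]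

include hc in
/-- A stem extension of the whole group from a central extension of a subgroup with kernel of prime
order. -/
theorem exists_stem [Finite G] [Finite K] {p : ℕ} [hp : Fact p.Prime] (hcard : Nat.card π.ker = p)
    {x y : G} (hxy : x * y = y * x) (hx : x ^ 3 = 1) (hy : y ^ 3 = 1) {ι : Type} [Fintype ι]
    (t : ι → G) (hinj : Function.Injective fun i => (t i : Cos π))
    (hfix : ∀ v : Cos π, (x • v = v ∧ y • v = v) ↔ ∃ i, (t i : Cos π) = v)
    (X Y : ι → K) (hX : ∀ i, π (X i) = (t i)⁻¹ * x * t i) (hY : ∀ i, π (Y i) = (t i)⁻¹ * y * t i)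
    (c : ι → Val π) (hval : ∀ i, ((c i : Subgroup.center K) : K) = ⁅X i, Y i⁆)
    (hne : ∏ i, c i ≠ 1) :
    ∃ (E : Type) (_ : Group E) (_ : Finite E) (σ : E →* G),
      Cfsg.IsStemExtension σ ∧ IsCyclic σ.ker ∧ Nat.card σ.ker = p := by
  classical
  have hprod : (∏ v ∈ Finset.univ.filter (fun v : Cos π => x • v = v ∧ y • v = v), ee hc x y v) =
      ∏ i, c i := by
    have himg : Finset.univ.filter (fun v : Cos π => x • v = v ∧ y • v = v) =
        Finset.univ.image fun i => (t i : Cos π) := by
      ext v; simp [hfix]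
    rw [himg, Finset.prod_image fun i _ j _ h => hinj h]
    refine Finset.prod_congr rfl fun i _ => val_ext ?_
    obtain ⟨h1, h2⟩ := (hfix _).mpr ⟨i, rfl⟩
    rw [hval, ee_fixed hc hxy h1 h2 rfl (hX i) (hY i)]
  let eK : (proj hc).ker ≃ π.ker :=
    { toFun := fun q => ⟨((q.1.a : Subgroup.center K) : K), q.1.a.2⟩
      invFun := fun k => ⟨⟨1, val hc k.1 k.2⟩, rfl⟩
      left_inv := fun q => Subtype.ext (Ext.ext' hc (MonoidHom.mem_ker.mp q.2).symm rfl)
      right_inv := fun k => rfl }
  have hkc : Nat.card (proj hc).ker = p := by rw [Nat.card_congr eK, hcard]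
  have : Finite (Ext π hc) := Finite.of_equiv _ (Ext.equiv hc).symm
  refine ⟨Ext π hc, inferInstance, inferInstance, proj hc, ⟨fun g => ⟨⟨g, 1⟩, rfl⟩, ?_, ?_⟩,
    isCyclic_of_prime_card hkc, hkc⟩
  · intro q hq
    rw [MonoidHom.mem_ker] at hq
    refine Subgroup.mem_center_iff.mpr fun r => Ext.ext' hc ?_ ?_
    · show r.g * q.g = q.g * r.g
      rw [show q.g = 1 from hq, mul_one, one_mul]
    · show r.a * q.a * cc hc r.g q.g = q.a * r.a * cc hc q.g r.g
      rw [show q.g = 1 from hq, cc_one_left, cc_one_right, mul_comm r.a]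
  · intro q hq
    have hz := commutator_eq hc hxy hx hy
    rw [hprod] at hz
    set z : Ext π hc := ⟨1, ∏ i, c i⟩
    obtain ⟨m, hm⟩ := mem_zpowers_of_prime_card hkc (g := (⟨z, rfl⟩ : (proj hc).ker))
      (g' := ⟨q, hq⟩) (fun h => hne (congrArg (fun w : (proj hc).ker => w.1.a) h))
    have hm' := congrArg Subtype.val hm
    simp only [SubgroupClass.coe_zpow] at hm'
    rw [← hm', ← hz]
    exact zpow_mem (Subgroup.commutator_mem_commutator (Subgroup.mem_top _) (Subgroup.mem_top _)) m

end Cfsg.Agent.H14.PLocal.Transfer
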