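import Cfsg.Agent.H12.CentralExt.Cover
import Cfsg.Agent.H36.AutEngineBase

/-!
Tests on packed permutations of a straight-line program: words in two of its entries, inverse base
images along a coset graph, and orbit trees.
-/

set_option autoImplicit false

namespace Cfsg.Agent.H14.PLocal.PermTests

open Equiv Cfsg.Agent.H16 Cfsg.Agent.H36 Cfsg.Agent.H36.AutEngine Cfsg.Agent.H12.CExt

variable (C : AutEngine.Ctx)

/-- A word in two packed maps, applied to a point. -/
noncomputable def apWord (P Q : ℕ) (w : List ℕ) (x : ℕ) : ℕ :=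
  List.rec (motive := fun _ => ℕ) x
    (fun c _ ih => forceNat ih fun y => bif Nat.beq c 0 then C.ap P y else C.ap Q y) w

/-- All relators hold. -/
noncomputable def relsOK (D : Graph) (P Q : ℕ) : Bool :=
  D.rels.all fun r => (r.all fun c => Nat.blt c 2) && C.allPts fun x => Nat.beq (apWord C P Q r x) x

/-- The inverse images of the base along the tree of the graph. -/
noncomputable def invImgOK (D : Graph) (P Q : ℕ) (bs : List ℕ) (I : ℕ → ℕ → ℕ) (lo len : ℕ) :
    Bool :=
  allFrom (fun v => allFrom (fun i => forceNat (I v i) fun z =>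
    Nat.blt z C.n &&
      bif Nat.beq v 0 then Nat.beq z (getN bs i) else
        Nat.blt (D.par v).1 v &&
          Nat.beq (bif Nat.beq (D.par v).2 0 then C.ap P z else C.ap Q z) (I (D.par v).1 i))
    bs.length 0) len lo

/-- No nontrivial coordinate gives the identity. -/
noncomputable def sepOK (D : Graph) (Q : ℕ) (bs : List ℕ) (I : ℕ → ℕ → ℕ) (lo len : ℕ) : Bool :=
  allFrom (fun v => allFrom (fun e =>
    (Nat.beq v 0 && Nat.beq e 0) || !(allFrom (fun i =>
      Nat.beq (iterPt (C.ap Q) e (getN bs i)) (I v i)) bs.length 0)) D.nb 0) len lo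

/-- An orbit tree: point, position of its parent, entry moving the parent's point to it. -/
noncomputable def treeOK (b : ℕ) (T : List (ℕ × ℕ × ℕ)) (gs : List ℕ) : Bool :=
  (List.range T.length).all fun i =>
    Nat.blt (T.getD i (0, 0, 0)).1 C.n &&
    bif Nat.beq i 0 then Nat.beq (T.getD i (0, 0, 0)).1 b else
      Nat.blt (T.getD i (0, 0, 0)).2.1 i && Nat.blt (T.getD i (0, 0, 0)).2.2 gs.length &&
        Nat.beq (C.ap (C.el (getN gs (T.getD i (0, 0, 0)).2.2)) (T.getD (T.getD i (0, 0, 0)).2.1 (0, 0, 0)).1)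
          (T.getD i (0, 0, 0)).1

variable {C}

theorem allFrom_intro {p : ℕ → Bool} : ∀ {n lo : ℕ}, (∀ i, lo ≤ i → i < lo + n → p i = true) →
    allFrom p n lo = true
  | 0, _, _ => rfl
  | n + 1, lo, h => by
    rw [allFrom_succ, h lo le_rfl (by omega), Bool.true_and]
    exact allFrom_intro fun i h1 h2 => h i (by omega) (by omega)

/-- The points of an orbit tree are images of its root. -/
theorem tree_mem {b : ℕ} {T : List (ℕ × ℕ × ℕ)} {gs : List ℕ} (h : treeOK C b T gs = true)
    (S : Subgroup (Perm (Fin C.n))) (hgs : ∀ k < gs.length, ∃ g ∈ S, C.Rep g (C.el (getN gs k)))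
    (hb : b < C.n) :
    ∀ i < T.length, ∃ g ∈ S, ((g ⟨b, hb⟩ : Fin C.n) : ℕ) = (T.getD i (0, 0, 0)).1 := by
  simp only [treeOK, List.all_eq_true, List.mem_range, Bool.and_eq_true, Nat.blt_eq] at h
  intro i
  induction i using Nat.strong_induction_on with
  | _ i ih =>
    intro hi
    obtain ⟨hlt, ht⟩ := h i hi
    rcases Nat.eq_zero_or_pos i with rfl | hpos
    · rw [Nat.beq_refl, cond_true] at ht
      exact ⟨1, one_mem _, by simpa using (Nat.eq_of_beq_eq_true ht).symm⟩
    · rw [show Nat.beq i 0 = false by simpa [Bool.eq_false_iff] using hpos.ne', cond_false] at ht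
      simp only [Bool.and_eq_true, Nat.blt_eq] at ht
      obtain ⟨⟨hp, hk⟩, he⟩ := ht
      obtain ⟨g, hg, hg'⟩ := ih _ hp (by omega)
      obtain ⟨s, hs, hsr⟩ := hgs _ hk
      exact ⟨s * g, mul_mem hs hg, by
        rw [Perm.mul_apply, hsr, hg']; exact Nat.eq_of_beq_eq_true he⟩

theorem apWord_spec {a b : Perm (Fin C.n)} {P Q : ℕ} (ha : C.Rep a P) (hb : C.Rep b Q)
    (w : List ℕ) (x : Fin C.n) :
    ((ev a b w x : Fin C.n) : ℕ) = apWord C P Q w x := by
  induction w with
  | nil => rfl
  | cons c w ih =>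
    have hs : apWord C P Q (c :: w) x =
        forceNat (apWord C P Q w x) fun y => bif Nat.beq c 0 then C.ap P y else C.ap Q y := rfl
    rw [hs, forceNat_eq, ← ih, ev_cons, Perm.mul_apply, letter]
    by_cases hc : c = 0
    · rw [if_pos hc, hc, Nat.beq_refl, cond_true, ha]
    · rw [if_neg hc, show Nat.beq c 0 = false by simpa [Bool.eq_false_iff] using hc, cond_false, hb]

theorem rel_of_check {D : Graph} {a b : Perm (Fin C.n)} {P Q : ℕ} (ha : C.Rep a P) (hb : C.Rep b Q)
    (h : relsOK C D P Q = true) : ∀ r ∈ D.rels, ev a b r = 1 := by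
  intro r hr
  have := List.all_eq_true.mp h r hr
  simp only [Bool.and_eq_true] at this
  exact Equiv.ext fun x => Fin.ext (by rw [apWord_spec ha hb, Ctx.pts_spec this.2 x]; rfl)

theorem letters_of_check {D : Graph} {P Q : ℕ} (h : relsOK C D P Q = true) :
    ∀ r ∈ D.rels, ∀ c ∈ r, c < 2 := by
  intro r hr c hc
  have := List.all_eq_true.mp h r hr
  simp only [Bool.and_eq_true, List.all_eq_true, Nat.blt_eq] at this
  exact this.1 c hc

/-- The separation from the checks. -/
theorem sep_of_check {D : Graph} {a b : Perm (Fin C.n)} {P Q : ℕ} (ha : C.Rep a P) (hb : C.Rep b Q)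
    {bs : List ℕ} {I : ℕ → ℕ → ℕ} (hbs : ∀ i < bs.length, getN bs i < C.n)
    (hI : ∀ v < D.n, invImgOK C D P Q bs I v 1 = true)
    (hsep : ∀ v < D.n, sepOK C D Q bs I v 1 = true) :
    ∀ e < D.nb, ∀ u < D.n, b ^ e * tval D a b u = 1 → e = 0 ∧ u = 0 := by
  have himg : ∀ v < D.n, ∀ i, ∀ hi : i < bs.length, ∃ z : Fin C.n, (z : ℕ) = I v i ∧
      tval D a b v z = ⟨getN bs i, hbs i hi⟩ := by
    intro v
    induction v using Nat.strong_induction_on with
    | _ v ih =>
      intro hv i hi
      have h := allFrom_spec (allFrom_spec (hI v hv) v le_rfl (by omega)) i (Nat.zero_le _)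
        (by omega)
      simp only [forceNat_eq, Bool.and_eq_true, Nat.blt_eq] at h
      obtain ⟨hlt, h⟩ := h
      refine ⟨⟨I v i, hlt⟩, rfl, ?_⟩
      rcases Nat.eq_zero_or_pos v with rfl | hpos
      · rw [Nat.beq_refl, cond_true] at h
        rw [tval_zero]
        exact Fin.ext (Nat.eq_of_beq_eq_true h)
      · rw [show Nat.beq v 0 = false by simpa [Bool.eq_false_iff] using hpos.ne', cond_false] at h
        simp only [Bool.and_eq_true, Nat.blt_eq] at h
        obtain ⟨hp, he⟩ := h
        obtain ⟨z, hz, hz'⟩ := ih _ hp (by omega) i hi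
        rw [tval_of_par D a b hpos hp, Perm.mul_apply]
        rw [show letter a b (D.par v).2 ⟨I v i, hlt⟩ = z from Fin.ext ?_, hz']
        rw [hz, letter]
        by_cases hc : (D.par v).2 = 0
        · rw [hc, Nat.beq_refl, cond_true] at he
          rw [if_pos hc, ha]; exact Nat.eq_of_beq_eq_true he
        · rw [show Nat.beq (D.par v).2 0 = false by simpa [Bool.eq_false_iff] using hc,
            cond_false] at he
          rw [if_neg hc, hb]; exact Nat.eq_of_beq_eq_true he
  intro e he u hu h
  by_contra hne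
  have hs := allFrom_spec (allFrom_spec (hsep u hu) u le_rfl (by omega)) e (Nat.zero_le _) (by omega)
  rw [Bool.or_eq_true] at hs
  rcases hs with hs | hs
  · simp only [Bool.and_eq_true] at hs
    exact hne ⟨Nat.eq_of_beq_eq_true hs.2, Nat.eq_of_beq_eq_true hs.1⟩
  · have hfalse : allFrom (fun i => Nat.beq (iterPt (C.ap Q) e (getN bs i)) (I u i)) bs.length 0 =
        true := by
      refine allFrom_intro fun i hi0 hi => ?_
      have hi' : i < bs.length := by omega
      obtain ⟨z, hz, hz'⟩ := himg u hu i hi'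
      have h1 := congrArg (fun g : Perm (Fin C.n) => g z) h
      simp only [Perm.mul_apply, hz', Perm.one_apply] at h1
      rw [Ctx.iterPt_spec (g := b) (fun x => (hb x).symm) e ⟨getN bs i, hbs i hi'⟩, h1, hz]
      exact Nat.beq_refl _
    rw [hfalse] at hs
    exact absurd hs (by simp)

end Cfsg.Agent.H14.PLocal.PermTests
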