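import Cfsg.Agent.H12.CentralExt.Cover

/-!
The central extension of a two-generated subgroup given by reduced labels on its coset graph.
-/

set_option autoImplicit false

namespace Cfsg.Agent.H14.PLocal.CoverGroup

open Cfsg.Agent.H12.CExt

variable {D : Graph} {A : Type} [AddCommGroup A] [Finite A] [NeZero D.nb]
  {LA : ℕ → ℕ → ZMod D.nb × A} {chi : ℕ → A}

/-- What the graph says about two elements of a group, with the reduced labels. -/
structure Input (D : Graph) (LA : ℕ → ℕ → ZMod D.nb × A) (chi : ℕ → A) {G : Type} [Group G]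
    (ga gb : G) : Prop where
  cover : CoverOK D LA chi
  graph : AllOK D
  letters : ∀ r ∈ D.rels, ∀ c ∈ r, c < 2
  pos : 0 < D.n
  hjb : D.rels.getD D.jb [] = List.replicate D.nb 1 ∧ D.jb < D.rels.length
  rel : ∀ r ∈ D.rels, ev ga gb r = 1
  chi_jb : chi D.jb = 0
  dvd : D.nb ∣ D.N
  exp : ∀ x : A, D.N • x = 0
  span : ∀ x : A, ∃ j < D.rels.length, ∃ k : ℕ, x = k • chi j
  sep : ∀ e < D.nb, ∀ u < D.n, gb ^ e * tval D ga gb u = 1 → e = 0 ∧ u = 0

variable {G : Type} [Group G] {ga gb : G} (hI : Input D LA chi ga gb)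

instance instFinitePermOp : Finite (Equiv.Perm (Pt D A))ᵐᵒᵖ :=
  Finite.of_equiv _ MulOpposite.opEquiv

/-- The permutations of the letters. -/
noncomputable def letterPerm (c : Fin 2) : (Equiv.Perm (Pt D A))ᵐᵒᵖ :=
  MulOpposite.op (Equiv.ofBijective _ (stepFn_bijective hI.cover hI.letters c))

/-- The cover. -/
noncomputable def grp : Subgroup (Equiv.Perm (Pt D A))ᵐᵒᵖ :=
  Subgroup.closure {letterPerm hI 0, letterPerm hI 1}

/-- The lift of the first generator. -/
noncomputable def ka : grp hI := ⟨letterPerm hI 0, Subgroup.subset_closure (Or.inl rfl)⟩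

/-- The lift of the second generator. -/
noncomputable def kb : grp hI := ⟨letterPerm hI 1, Subgroup.subset_closure (Or.inr rfl)⟩

/-- The base point. -/
def base : Pt D A := (⟨0, hI.pos⟩, 0)

theorem run (w : List (Fin 2)) (p : Pt D A) :
    MulOpposite.unop (ev (letterPerm hI 0) (letterPerm hI 1) (w.map Fin.val)) p =
      runFn hI.cover w p := by
  induction w generalizing p with
  | nil => rfl
  | cons c w ih =>
    rw [List.map_cons, ev_cons, MulOpposite.unop_mul, Equiv.Perm.mul_apply, ih]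
    fin_cases c <;> rfl

theorem coe_ev (w : List ℕ) :
    ((ev (ka hI) (kb hI) w : grp hI) : (Equiv.Perm (Pt D A))ᵐᵒᵖ) =
      ev (letterPerm hI 0) (letterPerm hI 1) w :=
  map_ev (ka hI) (kb hI) (grp hI).subtype w

theorem exists_word' (k : grp hI) :
    ∃ w : List ℕ, (∀ c ∈ w, c < 2) ∧ k = ev (ka hI) (kb hI) w := by
  obtain ⟨w, hw, e⟩ := exists_word (a := letterPerm hI 0) (b := letterPerm hI 1) k.2
  exact ⟨w, hw, Subtype.ext (by rw [coe_ev]; exact e.symm)⟩

theorem fin_word {w : List ℕ} (hw : ∀ c ∈ w, c < 2) : ∃ v : List (Fin 2), v.map Fin.val = w :=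
  ⟨w.pmap (fun c h => (⟨c, h⟩ : Fin 2)) hw, by simp [List.map_pmap]⟩

theorem zval_eq {j : ℕ} (hj : j < D.rels.length) :
    ((zval D (ka hI) (kb hI) j : grp hI) : (Equiv.Perm (Pt D A))ᵐᵒᵖ) = trans D (chi j) := by
  obtain ⟨w, hw, hrel⟩ := runFn_rel hI.cover hI.letters hj
  rw [zval, coe_ev]
  apply MulOpposite.unop_injective
  refine Equiv.ext fun p => ?_
  rw [← hw, run, hrel, trans_apply]

theorem trans_mem (x : A) : trans D x ∈ grp hI := by
  obtain ⟨j, hj, k, rfl⟩ := hI.span x
  rw [trans_nsmul, ← zval_eq hI hj]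
  exact (grp hI).pow_mem (SetLike.coe_mem _) k

theorem trans_commute (x : A) (c : Fin 2) : Commute (trans D x) (letterPerm hI c) := by
  apply MulOpposite.unop_injective
  refine Equiv.ext fun p => ?_
  rw [MulOpposite.unop_mul, MulOpposite.unop_mul, Equiv.Perm.mul_apply, Equiv.Perm.mul_apply]
  show stepFn hI.cover c (p.1, p.2 + ((0 : ZMod D.nb), x)) =
    ((stepFn hI.cover c p).1, (stepFn hI.cover c p).2 + ((0 : ZMod D.nb), x))
  simp [stepFn, add_right_comm]

/-- A translation in the cover. -/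
noncomputable def tr (x : A) : grp hI := ⟨trans D x, trans_mem hI x⟩

theorem tr_central (x : A) : tr hI x ∈ Subgroup.center (grp hI) := by
  rw [Subgroup.mem_center_iff]
  intro k
  obtain ⟨w, hw, rfl⟩ := exists_word' hI k
  induction w with
  | nil => rw [ev_nil, one_mul, mul_one]
  | cons c w ih =>
    rw [ev_cons, mul_assoc, ih fun d hd => hw d (List.mem_cons_of_mem _ hd), ← mul_assoc,
      ← mul_assoc]
    congr 1
    rw [letter]
    split_ifs
    · exact Subtype.ext (trans_commute hI x 0).eq.symm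
    · exact Subtype.ext (trans_commute hI x 1).eq.symm

theorem tr_injective : Function.Injective (tr hI) := by
  intro x y h
  have := congrArg (fun k : grp hI => MulOpposite.unop (k : (Equiv.Perm (Pt D A))ᵐᵒᵖ) (base hI)) h
  simpa [tr, trans_apply, base] using this

theorem zval_tr (j : ℕ) : ∃ x, zval D (ka hI) (kb hI) j = tr hI x := by
  by_cases hj : j < D.rels.length
  · exact ⟨chi j, Subtype.ext (zval_eq hI hj)⟩
  · refine ⟨0, Subtype.ext ?_⟩
    rw [zval, List.getD_eq_default _ _ (not_lt.mp hj), ev_nil, OneMemClass.coe_one]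
    exact trans_zero.symm

theorem good : Good D (ka hI) (kb hI) := by
  refine ⟨fun j => ?_, fun j => ?_, ?_, fun j => ?_⟩
  · obtain ⟨x, hx⟩ := zval_tr hI j
    rw [hx]; exact (Subgroup.mem_center_iff.mp (tr_central hI x) _).symm
  · obtain ⟨x, hx⟩ := zval_tr hI j
    rw [hx]; exact (Subgroup.mem_center_iff.mp (tr_central hI x) _).symm
  · obtain ⟨t, ht⟩ := hI.dvd
    have h : kb hI ^ D.nb = 1 := by
      rw [← ev_replicate_one (ka hI) (kb hI), ← hI.hjb.1]
      refine Subtype.ext ?_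
      rw [show ev (ka hI) (kb hI) (D.rels.getD D.jb []) = zval D (ka hI) (kb hI) D.jb from rfl,
        zval_eq hI hI.hjb.2, hI.chi_jb, trans_zero, OneMemClass.coe_one]
    rw [ht, pow_mul, h, one_pow]
  · obtain ⟨x, hx⟩ := zval_tr hI j
    rw [hx]
    refine Subtype.ext ?_
    rw [SubmonoidClass.coe_pow]
    show trans D x ^ D.N = _
    rw [← trans_nsmul, hI.exp, trans_zero, OneMemClass.coe_one]

omit [Finite A] [NeZero D.nb] in
theorem zval_one (hI : Input D LA chi ga gb) (j : ℕ) : zval D ga gb j = 1 := by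
  rcases lt_or_ge j D.rels.length with hj | hj
  · rw [zval, List.getD_eq_getElem _ _ hj]; exact hI.rel _ (List.getElem_mem hj)
  · rw [zval, List.getD_eq_default _ _ hj, ev_nil]

omit [Finite A] [NeZero D.nb] in
theorem gb_pow (hI : Input D LA chi ga gb) : gb ^ D.nb = 1 := by
  rw [← ev_replicate_one ga gb, ← hI.hjb.1]
  exact zval_one hI D.jb

theorem good_base (hI : Input D LA chi ga gb) : Good D ga gb := by
  refine ⟨fun j => ?_, fun j => ?_, ?_, fun j => ?_⟩
  · rw [zval_one hI]; exact Commute.one_left _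
  · rw [zval_one hI]; exact Commute.one_left _
  · obtain ⟨t, ht⟩ := hI.dvd
    rw [ht, pow_mul, gb_pow hI, one_pow]
  · rw [zval_one hI, one_pow]

theorem phi_base (hI : Input D LA chi ga gb) (x : List ℕ) :
    phi D ga gb x = gb ^ (x.getD 0 0 % D.nb) := by
  rw [phi, pow_eq_pow_mod _ (gb_pow hI), psi, List.prod_eq_one fun t ht => ?_, mul_one]
  obtain ⟨j, -, rfl⟩ := List.mem_map.mp ht
  rw [zval_one hI, one_pow]

/-- The element of the base group at a point. -/
noncomputable def pi (_hI : Input D LA chi ga gb) (p : Pt D A) : G :=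
  gb ^ p.2.1.val * tval D ga gb p.1

theorem pi_step (c : Fin 2) (p : Pt D A) :
    pi hI (stepFn hI.cover c p) = pi hI p * letter ga gb c.val := by
  have he := edgeEq_of_allOK (good_base hI) hI.graph p.1 c p.1.2 c.2
  unfold EdgeEq at he
  have hmod : ∀ k : ℕ, gb ^ (k : ZMod D.nb).val = gb ^ k := fun k => by
    rw [ZMod.val_natCast, ← pow_eq_pow_mod k (gb_pow hI)]
  show gb ^ (p.2 + LA p.1 c).1.val * tval D ga gb (D.next p.1 c) = gb ^ p.2.1.val * _ * _
  rw [Prod.fst_add, hI.cover.proj _ p.1.2 _ c.2, mul_assoc (gb ^ p.2.1.val), he, phi_base hI,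
    ← mul_assoc, ← pow_eq_pow_mod _ (gb_pow hI), ← pow_add, ← hmod (_ + _), Nat.cast_add,
    ZMod.natCast_zmod_val]

omit [Finite A] [NeZero D.nb] in
theorem pi_base : pi hI (base hI) = 1 := by
  simp [pi, base, tval_zero]

theorem pi_run : ∀ (w : List (Fin 2)) (p : Pt D A),
    pi hI (runFn hI.cover w p) = pi hI p * ev ga gb (w.map Fin.val)
  | [], p => by simp [runFn, ev_nil]
  | c :: w, p => by rw [runFn, pi_run w, pi_step, List.map_cons, ev_cons, mul_assoc]

theorem pi_act (k : grp hI) (p : Pt D A) :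
    pi hI (MulOpposite.unop (k : (Equiv.Perm (Pt D A))ᵐᵒᵖ) p) =
      pi hI p * pi hI (MulOpposite.unop (k : (Equiv.Perm (Pt D A))ᵐᵒᵖ) (base hI)) := by
  obtain ⟨w, hw, rfl⟩ := exists_word' hI k
  obtain ⟨v, rfl⟩ := fin_word hw
  rw [coe_ev, run, run, pi_run, pi_run, pi_base, one_mul]

/-- The map to the base group. -/
noncomputable def proj : grp hI →* G :=
  MonoidHom.mk' (fun k => pi hI (MulOpposite.unop (k : (Equiv.Perm (Pt D A))ᵐᵒᵖ) (base hI)))
    fun k k' => by rw [Subgroup.coe_mul, MulOpposite.unop_mul, Equiv.Perm.mul_apply, pi_act]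

theorem proj_ev {w : List ℕ} (hw : ∀ c ∈ w, c < 2) :
    proj hI (ev (ka hI) (kb hI) w) = ev ga gb w := by
  obtain ⟨v, rfl⟩ := fin_word hw
  show pi hI _ = _
  rw [coe_ev, run, pi_run, pi_base, one_mul]

theorem range_proj : (proj hI).range = Subgroup.closure {ga, gb} := by
  apply le_antisymm
  · rintro _ ⟨k, rfl⟩
    obtain ⟨w, hw, rfl⟩ := exists_word' hI k
    rw [proj_ev hI hw]
    clear hw
    induction w with
    | nil => rw [ev_nil]; exact one_mem _
    | cons c w ih =>
      rw [ev_cons]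
      refine mul_mem (Subgroup.subset_closure ?_) ih
      rw [letter]; split_ifs <;> simp
  · rw [Subgroup.closure_le]
    rintro x (rfl | rfl)
    · exact ⟨ev (ka hI) (kb hI) [0], by rw [proj_ev hI (by simp)]; simp [ev, letter]⟩
    · exact ⟨ev (ka hI) (kb hI) [1], by rw [proj_ev hI (by simp)]; simp [ev, letter]⟩

theorem psi_tr (x : List ℕ) : ∃ a, psi D (ka hI) (kb hI) x = tr hI a := by
  have : ∀ L : List ℕ, ∃ a,
      (L.map fun j => zval D (ka hI) (kb hI) j ^ x.getD j 0).prod = tr hI a := by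
    intro L
    induction L with
    | nil => exact ⟨0, Subtype.ext (by rw [List.map_nil, List.prod_nil]; exact trans_zero.symm)⟩
    | cons j L ih =>
      obtain ⟨a, ha⟩ := ih
      obtain ⟨c, hc⟩ := zval_tr hI j
      refine ⟨x.getD j 0 • c + a, ?_⟩
      rw [List.map_cons, List.prod_cons, ha, hc]
      refine Subtype.ext ?_
      rw [Subgroup.coe_mul, SubmonoidClass.coe_pow]
      show (H12.CExt.trans D c) ^ _ * H12.CExt.trans D a = H12.CExt.trans D _
      rw [trans_add, trans_nsmul]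
  exact this _

/-- The kernel consists of translations. -/
theorem mem_ker_iff {k : grp hI} : k ∈ (proj hI).ker ↔ ∃ a, k = tr hI a := by
  constructor
  · intro hk
    obtain ⟨w, hw, rfl⟩ := exists_word' hI k
    rw [MonoidHom.mem_ker, proj_ev hI hw] at hk
    obtain ⟨hu, he⟩ := word_eq (good hI) hI.graph w hw 0 hI.pos
    obtain ⟨-, he'⟩ := word_eq (good_base hI) hI.graph w hw 0 hI.pos
    rw [tval_zero, one_mul] at he he'
    rw [hk, phi_base hI] at he'
    obtain ⟨e0, u0⟩ := hI.sep _ (Nat.mod_lt _ (NeZero.pos D.nb)) _ hu he'.symm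
    rw [u0, tval_zero, mul_one, phi, ← Nat.div_add_mod ((walk D 0 w).2.getD 0 0) D.nb, e0,
      add_zero, pow_mul] at he
    have h : kb hI ^ D.nb = 1 := by
      rw [← ev_replicate_one (ka hI) (kb hI), ← hI.hjb.1]
      refine Subtype.ext ?_
      rw [show ev (ka hI) (kb hI) (D.rels.getD D.jb []) = zval D (ka hI) (kb hI) D.jb from rfl,
        zval_eq hI hI.hjb.2, hI.chi_jb, trans_zero, OneMemClass.coe_one]
    rw [h, one_pow, one_mul] at he
    rw [he]
    exact psi_tr hI _
  · rintro ⟨a, rfl⟩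
    rw [MonoidHom.mem_ker]
    show pi hI ((base hI).1, (base hI).2 + ((0 : ZMod D.nb), a)) = 1
    simp [pi, base, tval_zero]

theorem ker_central : (proj hI).ker ≤ Subgroup.center (grp hI) := fun k hk => by
  obtain ⟨a, rfl⟩ := (mem_ker_iff hI).mp hk
  exact tr_central hI a

theorem card_ker : Nat.card (proj hI).ker = Nat.card A :=
  (Nat.card_congr (Equiv.ofBijective (fun a => (⟨tr hI a, (mem_ker_iff hI).mpr ⟨a, rfl⟩⟩ : (proj hI).ker))
    ⟨fun _ _ h => tr_injective hI (congrArg Subtype.val h), fun k => by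
      obtain ⟨a, ha⟩ := (mem_ker_iff hI).mp k.2
      exact ⟨a, Subtype.ext ha.symm⟩⟩)).symm

/-- The value of an element of the kernel, given as a quotient of two words. -/
theorem ev_div {w w' : List ℕ} (hw : ∀ c ∈ w, c < 2) (hw' : ∀ c ∈ w', c < 2)
    (h : ev ga gb w = ev ga gb w') :
    ev (ka hI) (kb hI) w * (ev (ka hI) (kb hI) w')⁻¹ =
      tr hI ((walkA D LA 0 w).2.2 - (walkA D LA 0 w').2.2) := by
  obtain ⟨a, ha⟩ := (mem_ker_iff hI (k := ev (ka hI) (kb hI) w * (ev (ka hI) (kb hI) w')⁻¹)).mp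
    (by rw [MonoidHom.mem_ker, map_mul, map_inv, proj_ev hI hw, proj_ev hI hw', h, mul_inv_cancel])
  rw [ha]
  congr 1
  rw [mul_inv_eq_iff_eq_mul, ← Subgroup.mem_center_iff.mp (tr_central hI a)] at ha
  obtain ⟨v, rfl⟩ := fin_word hw
  obtain ⟨v', rfl⟩ := fin_word hw'
  have := congrArg (fun k : grp hI => MulOpposite.unop (k : (Equiv.Perm (Pt D A))ᵐᵒᵖ) (base hI)) ha
  simp only [Subgroup.coe_mul, MulOpposite.unop_mul, Equiv.Perm.mul_apply, coe_ev, run] at this
  rw [show ((tr hI a : grp hI) : (Equiv.Perm (Pt D A))ᵐᵒᵖ) = trans D a from rfl, trans_apply] at this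
  obtain ⟨h1, h2⟩ := runFn_eq hI.cover v (base hI)
  obtain ⟨h3, h4⟩ := runFn_eq hI.cover v' (base hI)
  have h5 := congrArg (fun p : Pt D A => p.2.2) this
  simp only [h2, h4] at h5
  simp [base] at h5
  rw [h5]
  abel

end Cfsg.Agent.H14.PLocal.CoverGroup
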