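import Cfsg.Agent.H12.CentralExt.Main
import Cfsg.Agent.H64.StemBasic

/-!
Stem extensions with a kernel of prime power order, seen in a two-generated subgroup of index
prime to `p` whose generators have orders prime to `p`.
-/

set_option autoImplicit false

universe u v

namespace Cfsg.Agent.H14.PLocal

open Cfsg.Agent.H12.CExt
open scoped commutatorElement Pointwise

variable {G : Type u} [Group G] {Γ : Type v} [Group Γ] {σ : Γ →* G} {p : ℕ}

/-- An element of order prime to `p` has a lift of the same exponent. -/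
theorem exists_lift [Fact p.Prime] (hs : Function.Surjective σ) (hK : IsPGroup p σ.ker)
    {g : G} {m : ℕ} (hg : g ^ m = 1) (hm : ¬ p ∣ m) : ∃ a, σ a = g ∧ a ^ m = 1 := by
  obtain ⟨a, rfl⟩ := hs g
  have hmem : a ^ m ∈ σ.ker := by rw [MonoidHom.mem_ker, map_pow, hg]
  obtain ⟨i, hi⟩ := hK ⟨_, hmem⟩
  have hi' : (a ^ m) ^ p ^ i = 1 := by simpa using congrArg Subtype.val hi
  have hcop : m.Coprime (orderOf (a ^ m)) :=
    ((Nat.Coprime.pow_right i (Nat.coprime_comm.mp
      ((Fact.out : p.Prime).coprime_iff_not_dvd.mpr hm)))).coprime_dvd_right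
      (orderOf_dvd_of_pow_eq_one hi')
  obtain ⟨k, hk⟩ := exists_pow_eq_self_of_coprime hcop
  refine ⟨a * ((a ^ m) ^ k)⁻¹, ?_, ?_⟩
  · rw [map_mul, map_inv, map_pow, map_pow, hg, one_pow, inv_one, mul_one]
  · have h : ((a ^ m) ^ k) ^ m = a ^ m := by rw [← pow_mul, mul_comm, pow_mul, hk]
    rw [((Commute.refl a).pow_right m |>.pow_right k).inv_right.mul_pow, inv_pow, h, mul_inv_cancel]

/-- A kernel of prime power order lies in the derived preimage of a subgroup of index prime to
`p`. -/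
theorem ker_le_commutator [Finite Γ] [hp : Fact p.Prime] (hσ : Cfsg.IsStemExtension σ)
    (hK : IsPGroup p σ.ker) {H : Subgroup G} (hH : ¬ p ∣ H.index) :
    σ.ker ≤ ⁅H.comap σ, H.comap σ⁆ := by
  have hidx : ¬ p ∣ (H.comap σ).index := by rwa [H.index_comap_of_surjective hσ.1]
  obtain ⟨Q⟩ : Nonempty (Sylow p (H.comap σ)) := Sylow.nonempty
  let P₀ : Subgroup Γ := (Q : Subgroup (H.comap σ)).map (H.comap σ).subtype
  have hP : P₀ ≤ H.comap σ := Subgroup.map_subtype_le _
  have hcard : Nat.card P₀ = p ^ (Nat.card Γ).factorization p := by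
    rw [Subgroup.card_map_of_injective (Subgroup.subtype_injective _), Q.card_eq_multiplicity,
      ← (H.comap σ).card_mul_index,
      Nat.factorization_mul Nat.card_pos.ne' (fun h => hidx (by rw [h]; exact dvd_zero p)),
      Finsupp.add_apply, Nat.factorization_eq_zero_of_not_dvd hidx, add_zero]
  let P : Sylow p Γ := Sylow.ofCard P₀ hcard
  intro z hz
  have hcen : z ∈ Subgroup.center Γ := hσ.2.1 hz
  obtain ⟨Q', hQ'⟩ := hK.exists_le_sylow
  obtain ⟨g, hg⟩ := MulAction.exists_smul_eq Γ Q' P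
  have hzP : z ∈ (P : Subgroup Γ) := by
    have h : MulAut.conj g • z ∈ MulAut.conj g • (Q' : Subgroup Γ) :=
      Subgroup.smul_mem_pointwise_smul z (MulAut.conj g) _ (hQ' hz)
    rw [MulAut.smul_def, MulAut.conj_apply, Subgroup.mem_center_iff.mp hcen g,
      mul_inv_cancel_right] at h
    rw [← hg]
    exact h
  have := Cfsg.Agent.H64.mem_commutator_sylow_of_central P hcen (hσ.2.2 hz) hzP
  exact Subgroup.commutator_mono (show (P : Subgroup Γ) ≤ _ from hP) (show (P : Subgroup Γ) ≤ _ from hP) this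

/-- The derived preimage of a two-generated subgroup is generated by any lifts. -/
theorem commutator_le_closure (hc : σ.ker ≤ Subgroup.center Γ) {a b : Γ} {ga gb : G}
    (ha : σ a = ga) (hb : σ b = gb) :
    ⁅(Subgroup.closure {ga, gb}).comap σ, (Subgroup.closure {ga, gb}).comap σ⁆ ≤
      Subgroup.closure {a, b} := by
  set S := Subgroup.closure ({a, b} : Set Γ)
  have hS : (Subgroup.closure ({ga, gb} : Set G)).comap σ = S ⊔ σ.ker := by
    rw [← Subgroup.comap_map_eq, MonoidHom.map_closure, Set.image_pair, ha, hb]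
  rw [hS, Subgroup.commutator_le]
  intro x hx y hy
  obtain ⟨x', hx', k, hk, rfl⟩ := Subgroup.mem_sup_of_normal_right.mp hx
  obtain ⟨y', hy', l, hl, rfl⟩ := Subgroup.mem_sup_of_normal_right.mp hy
  have hk' := Subgroup.mem_center_iff.mp (hc hk)
  have hl' := Subgroup.mem_center_iff.mp (hc hl)
  have e : ⁅x' * k, y' * l⁆ = ⁅x', y'⁆ := by
    rw [commutatorElement_def, commutatorElement_def, mul_inv_rev, mul_inv_rev]
    calc x' * k * (y' * l) * (k⁻¹ * x'⁻¹) * (l⁻¹ * y'⁻¹)
        = x' * y' * (k * (l * k⁻¹) * x'⁻¹ * l⁻¹) * y'⁻¹ := by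
          simp only [mul_assoc]
          rw [← mul_assoc k y', ← hk' y']
          simp [mul_assoc]
      _ = x' * y' * x'⁻¹ * y'⁻¹ := by
          rw [← mul_assoc k l, ← hk' l, mul_inv_cancel_right, ← hl' x'⁻¹, mul_inv_cancel_right]
  rw [e, commutatorElement_def]
  exact S.mul_mem (S.mul_mem (S.mul_mem hx' hy') (S.inv_mem hx')) (S.inv_mem hy')

/-- If `t` commutes with an element of order prime to `p`, so do their lifts. -/
theorem commute_lift [Fact p.Prime] (hc : σ.ker ≤ Subgroup.center Γ) (hK : IsPGroup p σ.ker)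
    {T a : Γ} {m : ℕ} (ha : a ^ m = 1) (hm : ¬ p ∣ m) (h : Commute (σ T) (σ a)) :
    Commute T a := by
  set k := T * a * T⁻¹ * a⁻¹ with hk
  have hmem : k ∈ σ.ker := by
    rw [MonoidHom.mem_ker, hk, map_mul, map_mul, map_mul, map_inv, map_inv, h.eq]
    group
  have hcen := Subgroup.mem_center_iff.mp (hc hmem)
  have hconj : T * a * T⁻¹ = k * a := by rw [hk]; group
  have hpow : k ^ m = 1 := by
    have e : (T * a * T⁻¹) ^ m = T * a ^ m * T⁻¹ := conj_pow
    rw [hconj, Commute.mul_pow (hcen a).symm, ha] at e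
    simpa using e
  obtain ⟨i, hi⟩ := hK ⟨_, hmem⟩
  have hi' : k ^ p ^ i = 1 := by simpa using congrArg Subtype.val hi
  have hk1 : k = 1 := orderOf_eq_one_iff.mp (Nat.eq_one_of_dvd_coprimes
    ((Nat.Coprime.pow_left i ((Fact.out : p.Prime).coprime_iff_not_dvd.mpr hm)))
    (orderOf_dvd_of_pow_eq_one hi') (orderOf_dvd_of_pow_eq_one hpow))
  rw [hk1, one_mul, mul_inv_eq_iff_eq_mul] at hconj
  exact hconj

/-- Lifts of two commuting elements commute if the pair is conjugate to a pair `(t, h)` with `t`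
central in the subgroup and `h` inside it. -/
theorem commute_pair [Fact p.Prime] (hs : Function.Surjective σ)
    (hc : σ.ker ≤ Subgroup.center Γ) (hK : IsPGroup p σ.ker) {a b : Γ} {ma mb : ℕ}
    (ha : a ^ ma = 1) (hma : ¬ p ∣ ma) (hb : b ^ mb = 1) (hmb : ¬ p ∣ mb) {g t h : G}
    (hta : Commute t (σ a)) (htb : Commute t (σ b))
    (hh : h ∈ Subgroup.closure {σ a, σ b}) {X Y : Γ} (hX : g * σ X * g⁻¹ = t)
    (hY : g * σ Y * g⁻¹ = h) : Commute X Y := by
  obtain ⟨g₀, rfl⟩ := hs g
  have hT : σ (g₀ * X * g₀⁻¹) = t := by rw [map_mul, map_mul, map_inv, hX]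
  have hY' : g₀ * Y * g₀⁻¹ ∈ (Subgroup.closure ({σ a, σ b} : Set G)).comap σ := by
    rw [Subgroup.mem_comap, map_mul, map_mul, map_inv, hY]
    exact hh
  have hS : (Subgroup.closure ({σ a, σ b} : Set G)).comap σ = Subgroup.closure {a, b} ⊔ σ.ker := by
    rw [← Subgroup.comap_map_eq, MonoidHom.map_closure, Set.image_pair]
  rw [hS] at hY'
  have hle : Subgroup.closure ({a, b} : Set Γ) ⊔ σ.ker ≤
      Subgroup.centralizer {g₀ * X * g₀⁻¹} := by
    refine sup_le ?_ (hc.trans (Subgroup.center_le_centralizer _))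
    rw [Subgroup.closure_le]
    rintro y (rfl | rfl) <;> rw [SetLike.mem_coe, Subgroup.mem_centralizer_singleton_iff]
    · exact ((commute_lift hc hK ha hma (by rwa [hT])).symm).eq
    · exact ((commute_lift hc hK hb hmb (by rwa [hT])).symm).eq
  have := (Subgroup.mem_centralizer_singleton_iff.mp (hle hY'))
  have h2 : Commute (g₀ * Y * g₀⁻¹) (g₀ * X * g₀⁻¹) := this
  exact ((Commute.conj_iff g₀).mp h2).symm

end Cfsg.Agent.H14.PLocal
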