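import Mathlib

/-!
A product over the orbits of a permutation of order three whose partial products telescope.
-/

set_option autoImplicit false

namespace Cfsg.Agent.H14.PLocal

variable {X : Type*} {A : Type*} [CommGroup A]

/-- The product over a transversal of the cycles. -/
theorem prod_split [DecidableEq X] (f : X → A) (σ : Equiv.Perm X) (h3 : ∀ u, σ (σ (σ u)) = u)
    (S : Finset X) (hS : ∀ u, σ u ∈ S ↔ u ∈ S) (T : Finset X) (hTS : T ⊆ S)
    (hT : ∀ u ∈ S, (u ∈ T ∧ σ u ∉ T ∧ σ (σ u) ∉ T) ∨ (u ∉ T ∧ σ u ∈ T ∧ σ (σ u) ∉ T) ∨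
      (u ∉ T ∧ σ u ∉ T ∧ σ (σ u) ∈ T)) :
    ∏ u ∈ S, f u = ∏ u ∈ T, (f u * f (σ u) * f (σ (σ u))) := by
  have h1 : ∀ u ∈ S, f u = (if u ∈ T then f u else 1) * (if σ (σ u) ∈ T then f u else 1) *
      (if σ u ∈ T then f u else 1) := by
    intro u hu
    rcases hT u hu with ⟨a, b, c⟩ | ⟨a, b, c⟩ | ⟨a, b, c⟩ <;> simp [a, b, c]
  have hmove : ∀ g : X → A, ∏ u ∈ S, g u = ∏ u ∈ S, g (σ u) := fun g =>
    (Finset.prod_equiv σ (fun u => (hS u).symm) fun u _ => rfl).symm
  have hres : ∀ g : X → A, (∏ u ∈ S, if u ∈ T then g u else 1) = ∏ u ∈ T, g u := fun g => by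
    rw [Finset.prod_ite_mem, Finset.inter_eq_right.mpr hTS]
  rw [Finset.prod_congr rfl h1, Finset.prod_mul_distrib, Finset.prod_mul_distrib,
    Finset.prod_mul_distrib, Finset.prod_mul_distrib, hres]
  congr 1
  · congr 1
    rw [hmove fun u => if σ (σ u) ∈ T then f u else 1]
    simp only [h3]
    exact hres fun u => f (σ u)
  · rw [hmove fun u => if σ u ∈ T then f u else 1,
      hmove fun u => if σ (σ u) ∈ T then f (σ u) else 1]
    simp only [h3]
    exact hres fun u => f (σ (σ u))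

/-- If the product of `e` over each cycle of `σ` is `L / L ∘ τ`, with `L` constant on the cycles and
`τ` commuting with `σ`, the product is trivial. -/
theorem prod_eq_one_of_cycles [Fintype X] (σ τ : Equiv.Perm X) (h3 : ∀ u, σ (σ (σ u)) = u)
    (hcomm : ∀ u, σ (τ u) = τ (σ u)) (S : Finset X) (hSσ : ∀ u, σ u ∈ S ↔ u ∈ S)
    (hSτ : ∀ u, τ u ∈ S ↔ u ∈ S) (hne : ∀ u ∈ S, σ u ≠ u) (e L : X → A)
    (hL : ∀ u, L (σ u) = L u) (h : ∀ u, e u * e (σ u) * e (σ (σ u)) = L u / L (τ u)) :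
    ∏ u ∈ S, e u = 1 := by
  classical
  let k : X → ℕ := fun u => (Fintype.equivFin X u : ℕ)
  have hk : Function.Injective k := fun u v he => (Fintype.equivFin X).injective (Fin.ext he)
  set T := S.filter fun u => k u < k (σ u) ∧ k u < k (σ (σ u)) with hTdef
  have hT : ∀ u ∈ S, (u ∈ T ∧ σ u ∉ T ∧ σ (σ u) ∉ T) ∨ (u ∉ T ∧ σ u ∈ T ∧ σ (σ u) ∉ T) ∨
      (u ∉ T ∧ σ u ∉ T ∧ σ (σ u) ∈ T) := by
    intro u hu
    have h1 : k (σ u) ≠ k u := fun he => hne u hu (hk he)
    have h2 : k (σ (σ u)) ≠ k u := fun he => by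
      refine hne u hu ?_
      conv_rhs => rw [← h3 u, hk he]
    have h4 : k (σ (σ u)) ≠ k (σ u) := fun he => hne u hu (σ.injective (hk he))
    simp only [hTdef, Finset.mem_filter, hSσ, hu, h3, true_and, not_and, not_lt]
    omega
  have key : ∀ f : X → A, ∏ u ∈ S, f u = ∏ u ∈ T, (f u * f (σ u) * f (σ (σ u))) := fun f =>
    prod_split f σ h3 S hSσ T (Finset.filter_subset _ _) hT
  rw [key, Finset.prod_congr rfl fun u _ => h u, Finset.prod_div_distrib, div_eq_one]
  have hτ : τ.symm ∘ σ = σ ∘ τ.symm := funext fun u => by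
    apply τ.injective
    simp only [Function.comp_apply, Equiv.apply_symm_apply]
    rw [← hcomm, Equiv.apply_symm_apply]
  have hmem : ∀ u, τ.symm u ∈ S ↔ u ∈ S := fun u => by rw [← hSτ, Equiv.apply_symm_apply]
  -- both transversals give the product of `L` over the cycles
  calc ∏ u ∈ T, L u = ∏ u ∈ S, (if τ.symm u ∈ T then L u else 1) := by
        rw [key]
        refine Finset.prod_congr rfl fun u hu => ?_
        have h1 : τ.symm (σ u) = σ (τ.symm u) := congrFun hτ u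
        have h2 : τ.symm (σ (σ u)) = σ (σ (τ.symm u)) := by
          rw [show τ.symm (σ (σ u)) = σ (τ.symm (σ u)) from congrFun hτ (σ u), h1]
        rw [h1, h2]
        rcases hT _ ((hmem u).mpr (Finset.mem_filter.mp hu).1) with ⟨a, b, c⟩ | ⟨a, b, c⟩ |
          ⟨a, b, c⟩ <;> simp [a, b, c, hL]
    _ = ∏ u ∈ T, L (τ u) := by
        rw [show (∏ u ∈ T, L (τ u)) = ∏ u ∈ S, (if u ∈ T then L (τ u) else 1) by
          rw [Finset.prod_ite_mem, Finset.inter_eq_right.mpr (Finset.filter_subset _ _)]]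
        refine (Finset.prod_equiv τ (fun u => (hSτ u).symm) fun u _ => ?_).symm
        simp

end Cfsg.Agent.H14.PLocal
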